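import Cfsg.Agent.H70.RI2

/-! Non-degenerate classes of root involutions with connected commuting graph: the product graph is connected,
generation by `X_d` and an odd partner, weak TI-subsets. -/

open Cfsg
open scoped Pointwise

namespace H70

variable {G : Type*} [Group G] {D : Set G} {a b c d e f m x y z g : G}

theorem conj_conj_of_sq (hg : g * g = 1) (x : G) : g * (g * x * g) * g = x := by
  simp only [mul_assoc, sqc hg, hg, mul_one]

/-- paths in the product graph -/
abbrev PP (D : Set G) (a b : G) : Prop := Relation.ReflTransGen (ProdAdj D) a b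

theorem PP.symm (h : PP D a b) : PP D b a := by
  induction h with
  | refl => exact .refl
  | tail _ h ih => exact .head ⟨h.2.1, h.1, h.2.2.1.symm, h.2.2.2.1.symm, h.2.2.2.1 ▸ h.2.2.2.2⟩ ih

theorem PP.mem (h : PP D a b) (ha : a ∈ D) : b ∈ D := by
  induction h with
  | refl => exact ha
  | tail _ h _ => exact h.2.1

section

variable (hD : IsRootInvolutionSet D)
include hD

theorem pp_single (ha : a ∈ D) (hb : b ∈ D) (hc : Commute a b) (hab : a * b ∈ D) : PP D a b :=
  .single ⟨ha, hb, fun e => ri_ne_one hD hab (by rw [e, ri_sq hD hb]), hc, hab⟩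

theorem pp_conj (h : PP D a b) (g : G) : PP D (g * a * g⁻¹) (g * b * g⁻¹) := by
  induction h with
  | refl => exact .refl
  | tail _ h ih =>
    exact ih.trans (pp_single hD (ri_conj hD h.1 g) (ri_conj hD h.2.1 g) (Commute.conj h.2.2.2.1 g)
      (by simpa [mul_assoc] using ri_conj hD h.2.2.2.2 g))

theorem pp_conj' (h : PP D a b) (hg : g * g = 1) : PP D (g * a * g) (g * b * g) := by
  simpa only [inv_of_sq hg] using pp_conj hD h g

theorem pp_four (ha : a ∈ D) (hb : b ∈ D) (h : Four a b) : PP D a (a * b * a * b) :=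
  pp_single hD ha (ri_four_mem hD ha hb h) (h.comm_left (ri_sq hD ha) (ri_sq hD hb)) (ri_four_mul hD ha hb)

theorem pp_of_four (ha : a ∈ D) (hb : b ∈ D) (h : Four a b) : PP D a b :=
  (pp_four hD ha hb h).trans (PP.symm (h.swap (ri_sq hD ha) (ri_sq hD hb) ▸ pp_four hD hb ha h.symm))

theorem pp_conj_of_not_opp (ha : a ∈ D) (he : e ∈ D) (h : ¬ IOpp a e) : PP D a (e * a * e) := by
  have sa := ri_sq hD ha; have se := ri_sq hD he
  rcases ri_tri hD ha he with h' | h' | h'
  · rw [conj_eq_of_commute' h'.symm se]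
  · exact absurd h' h
  · refine pp_single hD ha (ri_conj' hD ha se) ?_ (by simpa only [mul_assoc] using ri_four_mem hD ha he h')
    rw [four_conj_eq sa]; exact (Commute.refl a).mul_right (h'.comm_left sa se)

/-- the stabiliser of the component of `a` -/
def ppStab (a : G) : Subgroup G where
  carrier := {g | PP D a (g * a * g⁻¹)}
  one_mem' := by simp only [Set.mem_ofPred_eq, one_mul, inv_one, mul_one]; exact .refl
  mul_mem' := fun {g h} hg hh =>
    Relation.ReflTransGen.trans hg (by simpa only [mul_inv_rev, mul_assoc] using pp_conj hD hh g)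
  inv_mem' := fun {g} hg => PP.symm (by simpa [mul_assoc] using pp_conj hD hg g⁻¹)

theorem mem_ppStab_of (ha : a ∈ D) (he : e ∈ D) (hb : PP D a b) (h : ¬ IOpp b e) : e ∈ ppStab hD a := by
  show PP D a (e * a * e⁻¹)
  rw [ri_inv hD he]
  exact (hb.trans (pp_conj_of_not_opp hD (hb.mem ha) he h)).trans (pp_conj' hD hb (ri_sq hD he)).symm

theorem pp_of_mem_ppStab (hg : g ∈ ppStab hD a) (hb : PP D a b) : PP D a (g * b * g⁻¹) :=
  Relation.ReflTransGen.trans hg (pp_conj hD hb g)

theorem pp_of_opp_of_stab (ha : a ∈ D) (he : e ∈ D) (hs : e ∈ ppStab hD a) (hb : PP D a b) (o : IOpp b e) :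
    PP D a e := by
  have sb := ri_sq hD (hb.mem ha); have se := ri_sq hD he
  have h1 : PP D a (e * b * e) := by simpa only [ri_inv hD he] using pp_of_mem_ppStab hD hs hb
  obtain ⟨n, en⟩ := mid_eq_conj sb (ri_sq hD (h1.mem ha)) (o.sq sb se).2
  rw [mid_conj_self o sb se] at en
  rw [en]
  exact pp_of_mem_ppStab hD (pow_mem (mul_mem (mem_ppStab_of hD ha (hb.mem ha) hb fun o => o.1 rfl)
    (mem_ppStab_of hD ha (h1.mem ha) h1 fun o => o.1 rfl)) n) hb

theorem pp_commute (ha : a ∈ D) (he : e ∈ D) (hn : ¬ PP D a e) (hc : PP D a c) (h : ¬ IOpp c e) (hb : PP D a b) :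
    Commute b e := by
  rcases ri_tri hD (hb.mem ha) he with h' | h' | h'
  · exact h'
  · exact absurd (pp_of_opp_of_stab hD ha he (mem_ppStab_of hD ha he hc h) hb h') hn
  · exact absurd (hb.trans (pp_of_four hD (hb.mem ha) he h')) hn

theorem pp_opp (ha : a ∈ D) (he : e ∈ D) (hn : ¬ PP D a e) (o : IOpp a e) (hb : PP D a b) : IOpp b e := by
  by_contra h
  exact o.not_commute (ri_sq hD ha) (ri_sq hD he) (pp_commute hD ha he hn hb h .refl)

end

/-- a non-degenerate class -/
structure NDC (D : Set G) : Prop extends RIC D where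
  four : ∀ a ∈ D, ∃ b ∈ D, Four a b

theorem ndc_of_nd (hD : IsNondegenerateRootInvolutionSet D) (hcl : IsRootInvolutionClass D) : NDC D :=
  ⟨ric_of_nd hD hcl, fun x hx => by
    obtain ⟨a, ha, b, hb, h⟩ := hD.2.2.2
    obtain ⟨g, rfl⟩ := hcl.2.2 a ha x hx
    exact ⟨_, ri_conj hD.1 hb g, Four.conj h g⟩⟩

namespace NDC

variable [Finite G] (h : NDC D)
include h

omit [Finite G] in
theorem exists_prod (ha : a ∈ D) : ∃ b ∈ D, Commute a b ∧ a * b ∈ D := by
  obtain ⟨f, hf, h4⟩ := h.four a ha
  exact ⟨_, ri_four_mem h.ri ha hf h4, h4.comm_left (ri_sq h.ri ha) (ri_sq h.ri hf), ri_four_mul h.ri ha hf⟩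

theorem exists_opp_pp (ha : a ∈ D) : ∃ y, PP D a y ∧ IOpp a y := by
  obtain ⟨f, hf, h4⟩ := h.four a ha
  obtain ⟨x, hx, h1, -, o, -⟩ := h.exists_s3 ha hf h4
  exact ⟨x, (pp_four h.ri ha hf h4).trans (pp_of_four h.ri (ri_four_mem h.ri ha hf h4) hx h1.symm), o⟩

theorem aux_r (he : e ∈ D) (hx : x ∈ D) (ox : ∀ y, PP D e y → IOpp y x) {u : G}
    (hu : ∀ y, PP D e y → Commute u y) (hr : Commute (u * e) x) : False := by
  have hD := h.ri
  obtain ⟨e', he', c, hee⟩ := h.exists_prod he
  have p1 := pp_single hD he he' c hee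
  have p2 : PP D e (e * e') := pp_single hD he hee ((Commute.refl e).mul_right c) (by rwa [sqc (ri_sq hD he)])
  have se := ri_sq hD he; have se' := ri_sq hD he'; have sx := ri_sq hD hx
  have o := ox e .refl; have o' := ox e' p1
  have st : mid e x * mid e x = 1 := mid_sq se sx
  have st' : mid e' x * mid e' x = 1 := mid_sq se' sx
  have c1 : Commute (u * e) (mid e x) := commute_mid ((hu e .refl).mul_left (Commute.refl e)) hr
  have c2 : Commute (u * e) (mid e' x) := commute_mid ((hu e' p1).mul_left c) hr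
  obtain ⟨y, py, oy⟩ := h.exists_opp_pp hee
  have py' : PP D e y := p2.trans py
  -- `u e` acts on the component of `e` as `e`
  have k : ∀ v, PP D e v → u * e * v * (u * e)⁻¹ = e * v * e := fun v pv => by
    have := hu _ (pp_of_mem_ppStab hD (mem_ppStab_of hD he he .refl fun o => o.1 rfl) pv)
    simpa only [mul_inv_rev, mul_assoc, inv_of_sq se] using conj_eq_of_commute this
  have q1 := pp_conj' hD (p1.symm.trans py') st'
  rw [mid_swap_left se' sx o'.2] at q1
  have q2 := pp_conj' hD q1 st
  rw [mid_swap_right se sx o.2] at q2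
  have e1 := k y py'
  have e2 := k _ q2
  set t := mid e x
  set t' := mid e' x
  have e3 : u * e * (t * (t' * y * t') * t) * (u * e)⁻¹ = t * (t' * (u * e * y * (u * e)⁻¹) * t') * t := by
    have c := (c1.mul_right c2).eq
    have c' := ((c2.mul_right c1).inv_left).eq
    calc _ = (u * e * (t * t')) * y * (t' * t * (u * e)⁻¹) := by simp only [mul_assoc]
      _ = _ := by rw [c, ← c']; simp only [mul_assoc]
  have e4 : e = t * (t' * e' * t') * t := by rw [mid_swap_left se' sx o'.2, mid_swap_right se sx o.2]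
  rw [e3, e1] at e2
  have e5 : e * (t * (t' * y * t') * t) * e = t * (t' * (e' * y * e') * t') * t := by
    conv_lhs => rw [e4]
    simp only [mul_assoc, sqc st, sqc st']
  rw [e5, mul_left_inj, mul_right_inj, mul_left_inj, mul_right_inj] at e2
  refine oy.not_commute (ri_sq hD hee) (ri_sq hD (py'.mem he)) (mul_inv_eq_iff_eq_mul.1 ?_)
  rw [mul_inv_rev, inv_of_sq se, inv_of_sq se']
  calc _ = e * (e' * y * e') * e := by simp only [mul_assoc]
    _ = _ := by rw [← e2]; simp only [mul_assoc, sqc se, se, mul_one]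

theorem aux_A (he : e ∈ D) (hd : d ∈ D) (hn : ¬ PP D e d) (hc : Commute e d) (hx : x ∈ D)
    (oe : ∀ y, PP D e y → IOpp y x) (od : ∀ y, PP D d y → IOpp y x) : ¬ IOpp (e * x * e) (d * x * d) := by
  intro o
  have hD := h.ri
  have se := ri_sq hD he; have sd := ri_sq hD hd; have sx := ri_sq hD hx
  have sw := sq_mul_of_commute se sd hc
  have hx' := ri_conj' hD hx sw
  have o' : IOpp x (e * d * x * (e * d)) := by
    have := o.conj' se
    nth_rewrite 2 [hc.eq]
    simpa only [mul_assoc, sqc se, se, mul_one] using this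
  have hm := ri_mid_mem hD hx hx' o'
  have sm := ri_sq hD hm
  have cw : Commute (e * d) (mid x (e * d * x * (e * d))) := commute_mid_of_swap sx (ri_sq hD hx') o'.2
    (by rw [inv_of_sq sw]) (by rw [inv_of_sq sw, conj_conj_of_sq sw])
  have hs := mid_swap_left sx (ri_sq hD hx') o'.2
  set m := mid x (e * d * x * (e * d))
  have w1 : e * d ≠ 1 := fun e1 => o'.1 (by rw [e1, one_mul, mul_one])
  have cr : Commute (e * d * m) x := by
    refine mul_inv_eq_iff_eq_mul.1 ?_
    rw [mul_inv_rev, inv_of_sq sw, inv_of_sq sm]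
    calc _ = e * d * (m * x * m) * (e * d) := by simp only [mul_assoc]
      _ = _ := by rw [hs, conj_conj_of_sq sw]
  have n1 : ¬ IOpp e m := fun o => w1 (ri_even hD he hm o sw ((Commute.refl e).mul_left hc.symm) cw (by rwa [hc.eq, mul_assoc, se, mul_one]))
  have n2 : ¬ IOpp d m := fun o => w1 (ri_even hD hd hm o sw (hc.mul_left (Commute.refl d)) cw
    (by rwa [mul_assoc, sd, mul_one]))
  have no : ¬ IOpp e d := fun o => o.not_commute se sd hc
  by_cases p : PP D e m
  · have p' : ¬ PP D d m := fun p' => hn (p.trans p'.symm)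
    have cm := fun y py => pp_commute hD hd hm p' .refl n2 (b := y) py
    refine h.aux_r hd hx od (u := e * m) (fun y py => (pp_commute hD hd he (fun p => hn p.symm) .refl
      (fun o => no o.symm) py).symm.mul_left (cm y py).symm) ?_
    rwa [mul_assoc, ← (cm d .refl).eq, ← mul_assoc]
  · have cm := fun y py => pp_commute hD he hm p .refl n1 (b := y) py
    refine h.aux_r he hx oe (u := d * m) (fun y py => (pp_commute hD he hd hn .refl no py).symm.mul_left
      (cm y py).symm) ?_
    rwa [mul_assoc, ← (cm e .refl).eq, ← mul_assoc, ← hc.eq]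

theorem aux_B (he : e ∈ D) (hd : d ∈ D) (hn : ¬ PP D e d) (hc : Commute e d) (hx : x ∈ D)
    (oe : IOpp e x) (od : IOpp d x) : False := by
  have hD := h.ri
  have se := ri_sq hD he; have sd := ri_sq hD hd; have sx := ri_sq hD hx
  have no : ¬ IOpp e d := fun o => o.not_commute se sd hc
  have ne : ¬ PP D e x := fun p => od.not_commute sd sx (pp_commute hD he hd hn .refl no p).symm
  have nd : ¬ PP D d x := fun p => oe.not_commute se sx
    (pp_commute hD hd he (fun p => hn p.symm) .refl (fun o => no o.symm) p).symm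
  have oe' := fun y py => pp_opp hD he hx ne oe (b := y) py
  have od' := fun y py => pp_opp hD hd hx nd od (b := y) py
  obtain ⟨e', he', c, hee⟩ := h.exists_prod he
  have se' := ri_sq hD he'
  have p1 := pp_single hD he he' c hee
  have p2 : PP D e (e * e') := pp_single hD he hee ((Commute.refl e).mul_right c) (by rwa [sqc se])
  have cd := pp_commute hD he hd hn .refl no p1
  have a1 := h.aux_A he hd hn hc hx oe' od'
  have a2 := h.aux_A he' hd (fun p => hn (p1.trans p)) cd hx (fun y py => oe' y (p1.trans py)) od'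
  have s3 := ri_sq hD hee
  have hx1 := ri_conj' hD hx se; have hx2 := ri_conj' hD hx se'; have hxd := ri_conj' hD hx sd
  have o3 : IOpp (e * x * e) (e * e') := by
    have := (oe' _ p2).symm.conj' se
    rwa [conj_eq_of_commute' ((Commute.refl e).mul_right c) se] at this
  have e1 : e * e' * (e * x * e) * (e * e') = e' * x * e' := by
    nth_rewrite 1 [c.eq]; simp only [mul_assoc, sqc se]
  have o12 : IOpp (e * x * e) (e' * x * e') := e1 ▸ o3.sq (ri_sq hD hx1) s3
  have n12 : ¬ PP D (e * x * e) (e' * x * e') := fun p => by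
    have q := pp_of_opp_of_stab hD hx1 hee (by show PP D _ _; rwa [inv_of_sq s3, e1]) .refl o3
    have q2 := pp_conj' hD q se
    rw [conj_eq_of_commute' ((Commute.refl e).mul_right c) se] at q2
    simp only [mul_assoc, sqc se, se, mul_one] at q2
    exact ne (p2.trans q2.symm)
  have c1 : Commute (e * x * e) (d * x * d) := pp_commute hD hx1 hxd
    (fun p => a2 (pp_opp hD hx1 hx2 n12 o12 p).symm) .refl a1 .refl
  have c2 : Commute (e' * x * e') (d * x * d) := pp_commute hD hx2 hxd
    (fun p => a1 (pp_opp hD hx2 hx1 (fun p => n12 p.symm) o12.symm p).symm) .refl a2 .refl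
  have c3 := commute_conj' (commute_of_opp_conj o3 (ri_sq hD hx1) s3 c1.symm (e1 ▸ c2.symm)) sd
  rw [conj_eq_of_commute' (hc.symm.mul_right cd.symm) sd] at c3
  simp only [mul_assoc, sqc sd, sd, mul_one] at c3
  exact (oe' _ p2).not_commute s3 sx c3.symm

/-- S5054, second part, when the commuting graph is connected -/
theorem pp_connected (hc : IsConnectedSet (CommAdj D) D) : IsConnectedSet (ProdAdj D) D := by
  have hD := h.ri
  have key : ∀ e ∈ D, ∀ d ∈ D, Commute e d → PP D e d := by
    intro e he d hd c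
    by_contra hn
    have : ∀ y, Relation.ReflTransGen (OddAdj D) e y → ¬ PP D y d ∧ Commute y d := by
      intro y hy
      induction hy with
      | refl => exact ⟨hn, c⟩
      | @tail y y' _ o ih =>
        have n1 : ¬ PP D y' d := fun p => IOpp.not_commute o.2.2 (ri_sq hD o.1) (ri_sq hD o.2.1)
          (pp_commute hD hd o.1 (fun p => ih.1 p.symm) .refl
            (fun o' => o'.not_commute (ri_sq hD hd) (ri_sq hD o.1) ih.2.symm) p.symm).symm
        exact ⟨n1, pp_commute hD o.2.1 hd n1 .refl
          (fun o' => h.aux_B o.1 hd ih.1 ih.2 o.2.1 o.2.2 o'.symm) .refl⟩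
    exact (this d (h.connected e he d hd)).1 .refl
  intro a ha b hb
  have := hc a ha b hb
  clear hb
  induction this with
  | refl => exact .refl
  | tail _ h ih => exact ih.trans (key _ h.1 _ h.2.1 h.2.2.2)

/-- S5054, first part -/
theorem generation (hc : IsConnectedSet (ProdAdj D) D) (hd : d ∈ D) (hx : x ∈ D) (o : IOpp d x) {H : Subgroup G}
    (hX : ∀ b ∈ D, Commute d b → d * b ∈ D → b ∈ H) (hxH : x ∈ H) : H = ⊤ := by
  have hD := h.ri
  have sd := ri_sq hD hd; have sx := ri_sq hD hx
  have hdH : d ∈ H := by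
    obtain ⟨b, hb, c, hdb⟩ := h.exists_prod hd
    have := H.mul_mem (hX _ hdb ((Commute.refl d).mul_right c) (by rwa [sqc sd])) (hX b hb c hdb)
    rwa [mul_assoc, ri_sq hD hb, mul_one] at this
  have ht := mid_mem hdH hxH
  have st : mid d x * mid d x = 1 := mid_sq sd sx
  have step : ∀ b ∈ D, Commute d b → d * b ∈ D → ∃ g ∈ H, b = g * d * g⁻¹ := by
    intro b hb c hdb
    have sb := ri_sq hD hb
    by_cases ob : IOpp x b
    · refine ⟨mid x b * mid d x, H.mul_mem (mid_mem hxH (hX b hb c hdb)) ht, ?_⟩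
      rw [mul_inv_rev, inv_of_sq st, inv_of_sq (mid_sq sx sb)]
      calc b = mid x b * (mid d x * d * mid d x) * mid x b := by
            rw [mid_swap_left sd sx o.2, mid_swap_left sx sb ob.2]
        _ = _ := by simp only [mul_assoc]
    have cf : Cfg D d b x := ⟨hd, hb, hx, hdb, c, ri_four_of hD hx hb
      (ri_not_commute_of_opp hD hb hd (c.eq ▸ hdb) c.symm hx o.symm) ob, o.symm⟩
    obtain ⟨f, cf', ef⟩ := cf.exists_pre hD
    have hfH : f ∈ H := by
      have := hX _ (ri_conj' hD cf'.hb st) (by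
        simpa only [mid_swap_right sd sx o.2] using commute_conj' cf'.comm st) (by
        have := ri_conj' hD cf'.hab st
        rwa [show mid d x * (x * f) * mid d x = mid d x * x * mid d x * (mid d x * f * mid d x) by
          simp only [mul_assoc, sqc st], mid_swap_right sd sx o.2] at this)
      have := H.mul_mem (H.mul_mem ht this) ht
      simpa only [mul_assoc, sqc st, st, mul_one] using this
    obtain ⟨e, he, h4, ee⟩ := h.exists_four hb hd (c.eq ▸ hdb) c.symm fun k =>
      ob (opp_of_comm_subset hD hd hb k hx o).symm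
    have se := ri_sq hD he; have sf := ri_sq hD cf'.hb
    have ce : Commute e d := ee ▸ h4.comm_right sb se
    have heH : e ∈ H := hX e he ce.symm (by
      rw [← ce.eq, ← ee, ← h4.swap sb se]; exact ri_four_mul hD he hb)
    refine ⟨e * f, H.mul_mem heH hfH, ?_⟩
    rw [mul_inv_rev, inv_of_sq se, inv_of_sq sf]
    calc b = d * (b * d) := by rw [← c.eq, sqc sd]
      _ = e * d * e * (e * b * e) := by rw [conj_eq_of_commute' ce se, four_conj_eq sb, ee]
      _ = e * (f * d * f) * e := by rw [four_conj_eq (b := f) sd, ef]; simp only [mul_assoc, sqc se]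
      _ = _ := by simp only [mul_assoc]
  have all : ∀ b, PP D d b → ∃ g ∈ H, b = g * d * g⁻¹ := by
    intro b hb
    induction hb with
    | refl => exact ⟨1, H.one_mem, by simp⟩
    | @tail b b' _ hb ih =>
      obtain ⟨g, hg, rfl⟩ := ih
      obtain ⟨g', hg', e⟩ := step (g⁻¹ * b' * g) (by simpa using ri_conj hD hb.2.1 g⁻¹)
        (by simpa [mul_assoc] using Commute.conj hb.2.2.2.1 g⁻¹)
        (by simpa [mul_assoc] using ri_conj hD hb.2.2.2.2 g⁻¹)
      exact ⟨g * g', H.mul_mem hg hg', by rw [mul_inv_rev, mul_assoc g g', mul_assoc g, ← mul_assoc (g' * d), ← e]; group⟩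
  rw [eq_top_iff, ← hD.generates, Subgroup.closure_le]
  intro b hb
  obtain ⟨g, hg, rfl⟩ := all b (hc d hd b hb)
  exact H.mul_mem (H.mul_mem hg hdH) (H.inv_mem hg)

/-- S5053 -/
theorem weakTI_commute (hc : IsConnectedSet (ProdAdj D) D) {T : Set G} (hT : IsWeakTISubsetOfElements D T)
    (ha : a ∈ T) (hb : b ∈ T) : Commute a b := by
  have hD := h.ri
  obtain ⟨hsub, -, hne, hti⟩ := hT
  let N : Subgroup G := (MulAction.stabilizer (ConjAct G) T).comap ConjAct.toConjAct.toMonoidHom
  have hN : ∀ a ∈ T, ∀ e ∈ D, Commute a e → e ∈ N := fun a ha e he c =>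
    (hti e he).resolve_right fun hd => Set.disjoint_left.1 hd ⟨a, ha, conj_eq_of_commute c.symm⟩ ha
  have hm : ∀ g ∈ N, ∀ a ∈ T, g * a * g⁻¹ ∈ T := fun g hg a ha => by
    have e : (fun t => g * t * g⁻¹) '' T = T := hg
    rw [← e]; exact ⟨a, ha, rfl⟩
  have no : ∀ a ∈ T, ∀ b ∈ T, ¬ IOpp a b := fun a ha b hb o => by
    have := h.generation hc (hsub ha) (hsub hb) o (H := N) (fun e he c _ => hN a ha e he c)
      (hN b hb b (hsub hb) (Commute.refl b))
    refine hne (Set.Subset.antisymm hsub fun e he => ?_)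
    obtain ⟨g, rfl⟩ := h.cl a (hsub ha) e he
    exact hm g (this ▸ Subgroup.mem_top g) a ha
  by_contra hn
  have h4 := ri_four_of hD (hsub ha) (hsub hb) hn (no a ha b hb)
  obtain ⟨x, hx, f1, e, o, -⟩ := h.exists_s3 (hsub ha) (hsub hb) h4
  have sx := ri_sq hD hx
  have c : Commute x b := by
    have := f1.comm_left sx (ri_sq hD (ri_four_mem hD (hsub ha) (hsub hb) h4))
    rwa [e] at this
  exact no a ha _ (by simpa only [inv_of_sq sx] using hm x (hN b hb x hx c.symm) a ha)
    (o.sq (ri_sq hD (hsub ha)) sx)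

end NDC

end H70
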