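import Cfsg.Agent.H63.KgvSpec
import Cfsg.Agent.S3380
import Cfsg.Agent.H3.NormalRankOne

set_option autoImplicit false

namespace H70.KgvSg
universe u

theorem normal_syl {E : Type u} [Group E] [Finite E] (hE : Group.IsNilpotent E) (r : ℕ) [Fact r.Prime]
    (P : Sylow r E) : (P : Subgroup E).Normal := by
  haveI := hE
  infer_instance

theorem index_one {E : Type u} [Group E] [Finite E] (H : Subgroup E)
    (h : ∀ (s : ℕ) [Fact s.Prime] (Q : Sylow s E), (Q : Subgroup E) ≤ H) : H = ⊤ := by
  rw [← Subgroup.index_eq_one]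
  by_contra hne
  obtain ⟨s, hs, hd⟩ := Nat.exists_prime_and_dvd hne
  haveI : Fact s.Prime := ⟨hs⟩
  obtain ⟨Q⟩ : Nonempty (Sylow s E) := inferInstance
  exact Q.not_dvd_index (hd.trans (Subgroup.index_dvd_of_le (h s Q)))

theorem fact {E : Type u} [Group E] [Finite E] (hE : Group.IsNilpotent E) (r : ℕ) [Fact r.Prime]
    (P : Sylow r E) (y : E) : ∃ g ∈ (P : Subgroup E), ∃ w : E, (∀ x ∈ (P : Subgroup E), x * w = w * x) ∧ g * w = y := by
  haveI := normal_syl hE r P
  have ht : (P : Subgroup E) ⊔ Subgroup.centralizer (P : Set E) = ⊤ := by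
    apply index_one
    intro s _ Q
    by_cases hs : s = r
    · subst hs
      haveI := Sylow.unique_of_normal P inferInstance
      rw [Subsingleton.elim Q P]
      exact le_sup_left
    · refine le_trans ?_ le_sup_right
      intro q hq
      rw [Subgroup.mem_centralizer_iff]
      intro x hx
      exact (Subgroup.commute_of_normal_of_disjoint (P : Subgroup E) (Q : Subgroup E) inferInstance
        (normal_syl hE s Q)
        (IsPGroup.disjoint_of_ne r s (Ne.symm hs) _ _ P.isPGroup' Q.isPGroup') x q hx hq).eq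
  have hy : y ∈ (P : Subgroup E) ⊔ Subgroup.centralizer (P : Set E) := ht ▸ Subgroup.mem_top y
  obtain ⟨g, hg, w, hw, rfl⟩ := Subgroup.mem_sup_of_normal_left.1 hy
  exact ⟨g, hg, w, fun x hx => Subgroup.mem_centralizer_iff.1 hw x hx, rfl⟩

theorem central {E : Type u} [Group E] [Finite E] (hE : Group.IsNilpotent E) (r : ℕ) [Fact r.Prime]
    (P : Sylow r E) (c : E) (hc : c ∈ (P : Subgroup E)) (h : ∀ g ∈ (P : Subgroup E), g * c = c * g) :
    c ∈ Subgroup.center E := by
  rw [Subgroup.mem_center_iff]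
  intro y
  obtain ⟨g, hg, w, hw, rfl⟩ := fact hE r P y
  rw [mul_assoc, ← hw c hc, ← mul_assoc, h g hg, mul_assoc]

theorem cyc_central {E : Type u} [Group E] [Finite E] (hE : Group.IsNilpotent E) (r : ℕ) [Fact r.Prime]
    (P : Sylow r E) (h : IsCyclic (P : Subgroup E)) : (P : Subgroup E) ≤ Subgroup.center E := by
  intro c hc
  refine central hE r P c hc fun g hg => ?_
  obtain ⟨a, ha⟩ := h.exists_generator
  obtain ⟨i, hi⟩ := Subgroup.mem_zpowers_iff.1 (ha ⟨g, hg⟩)
  obtain ⟨j, hj⟩ := Subgroup.mem_zpowers_iff.1 (ha ⟨c, hc⟩)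
  have : (⟨g, hg⟩ : (P : Subgroup E)) * ⟨c, hc⟩ = ⟨c, hc⟩ * ⟨g, hg⟩ := by
    rw [← hi, ← hj, ← zpow_add, ← zpow_add, add_comm]
  exact congrArg Subtype.val this

theorem job : H63.Kgv.SgSt.{u} := by
  intro E _ _ hE hZ hna
  by_cases h1 : ∃ (r : ℕ) (_ : Fact r.Prime) (P : Sylow r E) (A : Subgroup (P : Subgroup E)),
      A.Normal ∧ IsMulCommutative A ∧ ¬ IsCyclic A
  · left
    obtain ⟨r, hr, P, A, hAn, hAc, hAn'⟩ := h1
    obtain ⟨c, a, hc, hco, ha, hac, hcomm⟩ := Cfsg.Agent.S3380.exists_pair P.isPGroup' A hAc hAn'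
    have hcZ : (c : E) ∈ Subgroup.center E := central hE r P c c.2 fun g hg =>
      congrArg Subtype.val (Subgroup.mem_center_iff.1 hc ⟨g, hg⟩)
    have hco' : orderOf (c : E) = r := by rw [Subgroup.orderOf_coe, hco]
    have ha' : (a : E) ^ r = 1 := congrArg Subtype.val ha
    refine ⟨r, c, a, hr.out, hco', hcZ, ha', fun haZ => hac ?_, fun y => ?_⟩
    · obtain ⟨i, hi⟩ := Subgroup.mem_zpowers_iff.1
        (H3.mem_zpowers_of_isCyclic_subgroup hZ haZ hcZ ha' hco')
      exact Subgroup.mem_zpowers_iff.2 ⟨i, Subtype.ext hi⟩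
    · obtain ⟨g, hg, w, hw, rfl⟩ := fact hE r P y
      obtain ⟨i, hi⟩ := Subgroup.mem_zpowers_iff.1 (hcomm ⟨g, hg⟩)
      have hi' : (c : E) ^ i = g * a * g⁻¹ * (a : E)⁻¹ := congrArg Subtype.val hi
      refine Subgroup.mem_zpowers_iff.2 ⟨i, ?_⟩
      rw [hi', mul_assoc g w, ← hw a a.2]
      group
  · right
    have h2 : ∀ (r : ℕ) [Fact r.Prime] (P : Sylow r E) (A : Subgroup (P : Subgroup E)),
        A.Normal → IsMulCommutative A → IsCyclic A := by
      intro r hr P A hn hc
      by_contra hh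
      exact h1 ⟨r, hr, P, A, hn, hc, hh⟩
    have hodd : ∀ (r : ℕ) [Fact r.Prime] (P : Sylow r E), r ≠ 2 → (P : Subgroup E) ≤ Subgroup.center E :=
      fun r _ P hr => cyc_central hE r P
        (H3.isCyclic_of_normal_abelian_cyclic_odd hr P.isPGroup' (h2 r P))
    obtain ⟨T⟩ : Nonempty (Sylow 2 E) := inferInstance
    have hT : ¬ IsCyclic (T : Subgroup E) := by
      intro hT
      apply hna
      have : Subgroup.center E = ⊤ := by
        apply index_one
        intro s _ Q
        by_cases hs : s = 2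
        · subst hs
          haveI := Sylow.unique_of_normal T (normal_syl hE 2 T)
          rw [Subsingleton.elim Q T]
          exact cyc_central hE 2 T hT
        · exact hodd s Q hs
      intro a b
      exact Subgroup.mem_center_iff.1 (this ▸ Subgroup.mem_top b) a
    obtain ⟨a, ha, -⟩ := H3.exists_zpowers_index_two_of_normal_abelian_cyclic T.isPGroup' (h2 2 T) hT
    have hcop : (T : Subgroup E).index.Coprime (Subgroup.center E).index := by
      apply Nat.coprime_of_dvd
      intro s hs hd1 hd2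
      haveI : Fact s.Prime := ⟨hs⟩
      have hs2 : s ≠ 2 := by
        rintro rfl
        exact T.not_dvd_index hd1
      obtain ⟨Q⟩ : Nonempty (Sylow s E) := inferInstance
      exact Q.not_dvd_index (hd2.trans (Subgroup.index_dvd_of_le (hodd s Q hs2)))
    have hm : (T : Subgroup E).index ∣ Nat.card (Subgroup.center E) := by
      apply hcop.dvd_of_dvd_mul_right
      rw [Subgroup.card_mul_index]
      exact Subgroup.index_dvd_card _
    obtain ⟨z, hz⟩ := hZ.exists_ofOrder_eq_natCard
    have hz0 : orderOf z ≠ 0 := (orderOf_pos z).ne'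
    have ho : orderOf (z ^ (orderOf z / (T : Subgroup E).index)) = (T : Subgroup E).index :=
      orderOf_pow_orderOf_div hz0 (hz ▸ hm)
    generalize z ^ (orderOf z / (T : Subgroup E).index) = o at ho
    have hac : orderOf a * 2 = Nat.card (T : Subgroup E) := by
      have e := (Subgroup.zpowers a).card_mul_index
      rwa [ha, Nat.card_zpowers] at e
    have hcm : Commute (a : E) (o : E) := Subgroup.mem_center_iff.1 o.2 a
    have hco : (orderOf (a : E)).Coprime (orderOf (o : E)) := by
      rw [Subgroup.orderOf_coe, Subgroup.orderOf_coe, ho]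
      exact T.card_coprime_index.coprime_dvd_left ⟨2, hac.symm⟩
    have hord := hcm.orderOf_mul_eq_mul_orderOf_of_coprime hco
    rw [Subgroup.orderOf_coe, Subgroup.orderOf_coe, ho] at hord
    refine ⟨Subgroup.zpowers ((a : E) * o), inferInstance, ?_⟩
    have e1 := (Subgroup.zpowers ((a : E) * o)).card_mul_index
    have e2 := (T : Subgroup E).card_mul_index
    rw [Nat.card_zpowers] at e1
    have hpos : 0 < orderOf ((a : E) * o) := orderOf_pos _
    apply Nat.eq_of_mul_eq_mul_left hpos
    rw [e1, hord, ← e2, ← hac]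
    ring

end H70.KgvSg
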