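/- Quadratic modules for rank one groups (Timmesfeld, Chapter I, sections 2 and 3). -/
import Cfsg.Agent.H70.RankOne2

set_option autoImplicit false
open Cfsg

namespace H70

variable {X : Type*} [Group X] {N : Type*} [AddCommGroup N] [DistribMulAction X N]

/-- the commutator subgroup `[N, K]` of an additive module. -/
def qcs (N : Type*) [AddCommGroup N] [DistribMulAction X N] (K : Subgroup X) : AddSubgroup N :=
  AddSubgroup.closure {m | ∃ k ∈ K, ∃ n : N, m = k • n - n}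

theorem sub_mem_qcs {K : Subgroup X} {k : X} (hk : k ∈ K) (n : N) : k • n - n ∈ qcs N K :=
  AddSubgroup.subset_closure ⟨k, hk, n, rfl⟩

theorem smul_mem_qcs_conj {K : Subgroup X} (x : X) {m : N} (hm : m ∈ qcs N K) :
    x • m ∈ qcs N (conjBy K x) := by
  induction hm using AddSubgroup.closure_induction with
  | mem m hm =>
    obtain ⟨k, hk, n, rfl⟩ := hm
    have := sub_mem_qcs (conj_mem_conjBy x hk) (x • n)
    rwa [mul_smul, mul_smul, inv_smul_smul, ← smul_sub] at this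
  | zero => simp
  | add a b _ _ iha ihb => rw [smul_add]; exact add_mem iha ihb
  | neg a _ ih => rw [smul_neg]; exact neg_mem ih

theorem qcs_fixed {K : Subgroup X} (hq : ∀ a ∈ K, ∀ a' ∈ K, ∀ n : N, a' • (a • n - n) = a • n - n)
    {a : X} (ha : a ∈ K) {m : N} (hm : m ∈ qcs N K) : a • m = m := by
  induction hm using AddSubgroup.closure_induction with
  | mem m hm => obtain ⟨k, hk, n, rfl⟩ := hm; exact hq k hk a ha n
  | zero => simp
  | add a b _ _ iha ihb => rw [smul_add, iha, ihb]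
  | neg a _ ih => rw [smul_neg, ih]

theorem quad_conj {K : Subgroup X} (hq : ∀ a ∈ K, ∀ a' ∈ K, ∀ n : N, a' • (a • n - n) = a • n - n)
    (x : X) : ∀ a ∈ conjBy K x, ∀ a' ∈ conjBy K x, ∀ n : N, a' • (a • n - n) = a • n - n := by
  intro a ha a' ha' n
  have := congrArg (fun m => x • m) (hq _ (mem_conjBy.1 ha) _ (mem_conjBy.1 ha') (x⁻¹ • n))
  simpa [mul_smul, smul_sub] using this

variable {A B : Subgroup X}

theorem quad_right (h : IsRankOnePair A B)
    (hq : ∀ a ∈ A, ∀ a' ∈ A, ∀ n : N, a' • (a • n - n) = a • n - n) :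
    ∀ a ∈ B, ∀ a' ∈ B, ∀ n : N, a' • (a • n - n) = a • n - n := by
  obtain ⟨y, -, e⟩ := r1_right_mem_unip h
  rw [e]; exact quad_conj hq y

theorem fixed_of_sup_eq_top (h : A ⊔ B = ⊤) {m : N} (hA : ∀ a ∈ A, a • m = m) (hB : ∀ b ∈ B, b • m = m)
    (x : X) : x • m = m := by
  have : A ⊔ B ≤ MulAction.stabilizer X m := sup_le hA hB
  exact this (h ▸ Subgroup.mem_top x)

theorem sub_mem_qcs_sup (h : A ⊔ B = ⊤) (x : X) (n : N) : x • n - n ∈ qcs N A ⊔ qcs N B := by
  have hx : x ∈ Subgroup.closure ((A : Set X) ∪ B) := by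
    rw [← Subgroup.sup_eq_closure, h]; exact Subgroup.mem_top x
  induction hx using Subgroup.closure_induction generalizing n with
  | mem x hx =>
    rcases hx with hx | hx
    · exact AddSubgroup.mem_sup_left (sub_mem_qcs hx n)
    · exact AddSubgroup.mem_sup_right (sub_mem_qcs hx n)
  | one => simp
  | mul x y _ _ ihx ihy =>
    have := add_mem (ihx (y • n)) (ihy n)
    rwa [sub_add_sub_cancel, ← mul_smul] at this
  | inv x _ ih =>
    have := neg_mem (ih (x⁻¹ • n))
    rwa [smul_inv_smul, neg_sub] at this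

theorem qcs_partner_left {a b : X} (e : conjBy A b⁻¹ = conjBy B a⁻¹) {u : N} (hu : u ∈ qcs N A) :
    ∃ w ∈ qcs N B, b⁻¹ • u = a⁻¹ • w := by
  have h1 := smul_mem_qcs_conj b⁻¹ hu
  rw [e] at h1
  have h2 := smul_mem_qcs_conj a h1
  rw [conjBy_cancel_inv] at h2
  exact ⟨_, h2, by rw [inv_smul_smul]⟩

/-- the basic computation: with `b⁻¹ u = a⁻¹ w` there is a fixed vector `z` with
`b⁻¹ u = u + w - z`. -/
theorem quad_fixed_vector (h : IsRankOneGroup X A B)
    (hq : ∀ a ∈ A, ∀ a' ∈ A, ∀ n : N, a' • (a • n - n) = a • n - n) {a b : X} (ha : a ∈ A)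
    (hb : b ∈ B) {u w : N} (hu : u ∈ qcs N A) (hw : w ∈ qcs N B) (e : b⁻¹ • u = a⁻¹ • w) :
    ∃ z : N, (∀ x : X, x • z = z) ∧ b⁻¹ • u = u + w - z := by
  refine ⟨u + w - b⁻¹ • u, fixed_of_sup_eq_top h.1 (fun a' ha' => ?_) (fun b' hb' => ?_), by abel⟩
  · refine qcs_fixed hq ha' ?_
    have := sub_mem hu (sub_mem_qcs (A.inv_mem ha) w)
    rw [e]; convert this using 1; abel
  · refine qcs_fixed (quad_right h.2 hq) hb' ?_
    have := sub_mem hw (sub_mem_qcs (B.inv_mem hb) u)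
    convert this using 1; abel

/-- every non-identity element of `A` acts non-trivially on `[N, B]` modulo the fixed points. -/
theorem quad_eq_one (h : IsRankOneGroup X A B)
    (hq : ∀ a ∈ A, ∀ a' ∈ A, ∀ n : N, a' • (a • n - n) = a • n - n)
    (hX : ∃ x y : X, ∃ n : N, y • (x • n - n) ≠ x • n - n) {a : X} (ha : a ∈ A)
    (hc : ∀ w ∈ qcs N B, ∀ x : X, x • (a • w - w) = a • w - w) : a = 1 := by
  by_contra ha1
  obtain ⟨b, hb, -, e⟩ := h.2.cond_left a⁻¹ (A.inv_mem ha) (by simpa using ha1)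
  have hU : ∀ u ∈ qcs N A, ∀ x : X, x • u = u := by
    intro u hu x
    obtain ⟨w, hw, e'⟩ := qcs_partner_left e hu
    obtain ⟨z, hz, e2⟩ := quad_fixed_vector h hq (A.inv_mem ha) hb hu hw e'
    rw [e', inv_inv] at e2
    have : u = (a • w - w) + z := by rw [e2]; abel
    rw [this, smul_add, hc w hw, hz]
  have hW : ∀ w ∈ qcs N B, ∀ x : X, x • w = w := by
    intro w hw x
    obtain ⟨u, hu, e'⟩ := qcs_partner_left e.symm hw
    rw [hU u hu, inv_smul_eq_iff, hU u hu] at e'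
    rw [e', hU u hu]
  obtain ⟨x, y, n, hne⟩ := hX
  obtain ⟨u, hu, w, hw, e'⟩ := AddSubgroup.mem_sup.1 (sub_mem_qcs_sup h.1 x n)
  exact hne (by rw [← e', smul_add, hU u hu, hW w hw])

/-- S5019. -/
theorem special_of_quadratic (h : IsRankOneGroup X A B)
    (hq : ∀ a ∈ A, ∀ a' ∈ A, ∀ n : N, a' • (a • n - n) = a • n - n)
    (hX : ∃ x y : X, ∃ n : N, y • (x • n - n) ≠ x • n - n) : IsSpecialRankOnePair A B := by
  refine ⟨h.2, fun a ha _ b hb _ e => ?_⟩
  have hqB := quad_right h.2 hq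
  have hU : ∀ u ∈ qcs N A, (b⁻¹ * a * b) • u = (a⁻¹ * b⁻¹ * a) • u := by
    intro u hu
    obtain ⟨w, hw, e'⟩ := qcs_partner_left e hu
    obtain ⟨z, hz, e2⟩ := quad_fixed_vector h hq ha hb hu hw e'
    have e3 : a⁻¹ • w = u + w - z := e' ▸ e2
    have hau : a • u = u := qcs_fixed hq ha hu
    have hau' : a⁻¹ • u = u := qcs_fixed hq (A.inv_mem ha) hu
    have hbw : b • w = w := qcs_fixed hqB hb hw
    have hbw' : b⁻¹ • w = w := qcs_fixed hqB (B.inv_mem hb) hw
    have e4 : b • u = u - w + z := by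
      have := congrArg (fun m => b • m) e2
      simp only [smul_inv_smul, smul_sub, smul_add, hbw, hz] at this
      have h5 : b • u = (b • u + w - z) - w + z := by abel
      rw [h5, ← this]
    have e5 : a • w = w - u + z := by
      have := congrArg (fun m => a • m) e3
      simp only [smul_inv_smul, smul_sub, smul_add, hau, hz] at this
      have h5 : a • w = (u + a • w - z) - u + z := by abel
      rw [h5, ← this]
    simp only [mul_smul, e4, smul_add, smul_sub, hau, hau', e5, e2, e3, hz, hbw']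
    abel
  have hg1 : b⁻¹ * a * b ∈ conjBy A b⁻¹ := by simpa using conj_mem_conjBy b⁻¹ ha
  have hg2 : a⁻¹ * b⁻¹ * a ∈ conjBy A b⁻¹ := by
    rw [e]; simpa using conj_mem_conjBy a⁻¹ (B.inv_mem hb)
  have hW : ∀ w ∈ qcs N B, (b⁻¹ * a * b) • w = (a⁻¹ * b⁻¹ * a) • w := by
    intro w hw
    obtain ⟨u, hu, e'⟩ := qcs_partner_left e.symm hw
    have h1 : w = b⁻¹ • u - (a⁻¹ • w - w) := by rw [e']; abel
    have h2 := smul_mem_qcs_conj b⁻¹ hu
    rw [h1, smul_sub, smul_sub (a⁻¹ * b⁻¹ * a), hU _ (sub_mem_qcs (A.inv_mem ha) w),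
      qcs_fixed (quad_conj hq b⁻¹) hg1 h2, qcs_fixed (quad_conj hq b⁻¹) hg2 h2]
  have hc := mem_conjBy.1 (Subgroup.mul_mem _ (Subgroup.inv_mem _ hg2) hg1)
  have h1 := quad_eq_one h hq hX hc (fun w hw x => by
    have h3 : b⁻¹ • w = w := qcs_fixed hqB (B.inv_mem hb) hw
    have h4 : b • w = w := qcs_fixed hqB hb hw
    rw [mul_smul, mul_smul, mul_smul, h3, hW w hw, inv_smul_smul, inv_inv, h4, sub_self, smul_zero])
  have h2 := congrArg (fun z => (a⁻¹ * b⁻¹ * a) * (b⁻¹ * z * b)) h1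
  simpa [mul_assoc] using h2

theorem quad_pow_smul {K : Subgroup X}
    (hq : ∀ a ∈ K, ∀ a' ∈ K, ∀ n : N, a' • (a • n - n) = a • n - n) {a : X} (ha : a ∈ K) (n : N)
    (k : ℕ) : a ^ k • n - n = k • (a • n - n) := by
  induction k with
  | zero => simp
  | succ k ih =>
    have : a ^ (k + 1) • n - n = a ^ k • (a • n - n) + (a ^ k • n - n) := by
      rw [pow_succ, mul_smul, smul_sub]; abel
    rw [this, ih, hq a ha _ (K.pow_mem ha k), succ_nsmul']

/-- if some non-identity element of `A` is killed by `k`, then all of `A` is. -/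
theorem quad_pow_eq_one (h : IsRankOneGroup X A B)
    (hq : ∀ a ∈ A, ∀ a' ∈ A, ∀ n : N, a' • (a • n - n) = a • n - n)
    (hX : ∃ x y : X, ∃ n : N, y • (x • n - n) ≠ x • n - n) {a : X} (ha : a ∈ A) (ha1 : a ≠ 1) {k : ℕ}
    (hk : a ^ k = 1) {c : X} (hc : c ∈ A) : c ^ k = 1 := by
  obtain ⟨b, hb, -, e⟩ := h.2.cond_left a⁻¹ (A.inv_mem ha) (by simpa using ha1)
  have hU : ∀ u ∈ qcs N A, ∀ x : X, x • (k • u) = k • u := by
    intro u hu x
    obtain ⟨w, hw, e'⟩ := qcs_partner_left e hu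
    obtain ⟨z, hz, e2⟩ := quad_fixed_vector h hq (A.inv_mem ha) hb hu hw e'
    rw [e', inv_inv] at e2
    have : u = (a • w - w) + z := by rw [e2]; abel
    rw [this, smul_add k, ← quad_pow_smul hq ha, hk, one_smul, sub_self, zero_add, smul_comm, hz]
  have hW : ∀ w ∈ qcs N B, ∀ x : X, x • (k • w) = k • w := by
    intro w hw x
    obtain ⟨u, hu, e'⟩ := qcs_partner_left e.symm hw
    have e2 := congrArg (fun m => k • m) e'
    simp only [smul_comm k] at e2
    rw [hU u hu, inv_smul_eq_iff, hU u hu] at e2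
    rw [e2, hU u hu]
  refine quad_eq_one h hq hX (A.pow_mem hc k) fun w hw x => ?_
  rw [quad_pow_smul hq hc, smul_sub k, smul_comm k, hW w hw, sub_self, smul_zero]

end H70
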