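/- Abstract root subgroups: first properties (Timmesfeld, Chapter II, section 2). -/
import Cfsg.Agent.H70.RankOne2

set_option autoImplicit false
open Cfsg

namespace H70

variable {G : Type*} [Group G] {S : Set (Subgroup G)} {A B C D E : Subgroup G}

theorem comm_mem_commutator {a b : G} (ha : a ∈ A) (hb : b ∈ B) : a * b * a⁻¹ * b⁻¹ ∈ ⁅A, B⁆ :=
  Subgroup.commutator_mem_commutator ha hb

theorem closure_image_inv (T : Set G) (f g : G → G) (h : ∀ x, g x = (f x)⁻¹) :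
    Subgroup.closure (g '' T) = Subgroup.closure (f '' T) := by
  apply le_antisymm <;> rw [Subgroup.closure_le] <;> rintro _ ⟨x, hx, rfl⟩
  · rw [h]; exact Subgroup.inv_mem _ (Subgroup.subset_closure ⟨x, hx, rfl⟩)
  · have : f x = (g x)⁻¹ := by rw [h, inv_inv]
    rw [this]; exact Subgroup.inv_mem _ (Subgroup.subset_closure ⟨x, hx, rfl⟩)

theorem cc_symm (h : RootCommutatorCase S A B) : RootCommutatorCase S B A := by
  obtain ⟨h1, h2, h3, h4⟩ := h
  rw [RootCommutatorCase, Subgroup.commutator_comm B A, sup_comm B A]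
  refine ⟨h1, h2, fun b hb hb1 => ?_, fun a ha ha1 => ?_⟩
  · rw [← h4 b hb hb1]
    exact closure_image_inv _ _ _ fun x => by group
  · rw [← h3 a ha ha1]
    exact closure_image_inv _ _ _ fun x => by group

theorem cc_comm_left (h : RootCommutatorCase S A B) {c a : G} (hc : c ∈ ⁅A, B⁆) (ha : a ∈ A) :
    c * a = a * c := h.2.1 c hc a (Subgroup.mem_sup_left ha)

theorem cc_comm_right (h : RootCommutatorCase S A B) {c b : G} (hc : c ∈ ⁅A, B⁆) (hb : b ∈ B) :
    c * b = b * c := h.2.1 c hc b (Subgroup.mem_sup_right hb)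

/-- In the commutator case every element of `[A, B]` is a commutator `[a, b]` with given `a ≠ 1`. -/
theorem cc_surj (h : RootCommutatorCase S A B) {a : G} (ha : a ∈ A) (ha1 : a ≠ 1) {c : G}
    (hc : c ∈ ⁅A, B⁆) : ∃ b ∈ B, c = a * b * a⁻¹ * b⁻¹ := by
  rw [← h.2.2.1 a ha ha1] at hc
  induction hc using Subgroup.closure_induction with
  | mem x hx => obtain ⟨b, hb, rfl⟩ := hx; exact ⟨b, hb, rfl⟩
  | one => exact ⟨1, B.one_mem, by group⟩
  | mul x y _ _ ihx ihy =>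
    obtain ⟨b, hb, rfl⟩ := ihx
    obtain ⟨b', hb', rfl⟩ := ihy
    refine ⟨b * b', B.mul_mem hb hb', ?_⟩
    have := cc_comm_right h (comm_mem_commutator ha hb') (B.inv_mem hb)
    calc a * b * a⁻¹ * b⁻¹ * (a * b' * a⁻¹ * b'⁻¹)
        = a * b * a⁻¹ * (b⁻¹ * (a * b' * a⁻¹ * b'⁻¹)) := by group
      _ = a * b * a⁻¹ * ((a * b' * a⁻¹ * b'⁻¹) * b⁻¹) := by rw [this]
      _ = _ := by group
  | inv x _ ih =>
    obtain ⟨b, hb, rfl⟩ := ih
    refine ⟨b⁻¹, B.inv_mem hb, ?_⟩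
    have := cc_comm_right h (comm_mem_commutator ha (B.inv_mem hb)) hb
    rw [inv_eq_iff_mul_eq_one]
    calc a * b * a⁻¹ * b⁻¹ * (a * b⁻¹ * a⁻¹ * b⁻¹⁻¹)
        = a * b * a⁻¹ * b⁻¹ * (a * b⁻¹ * a⁻¹ * b⁻¹⁻¹ * b) * b⁻¹ := by group
      _ = a * b * a⁻¹ * b⁻¹ * (b * (a * b⁻¹ * a⁻¹ * b⁻¹⁻¹)) * b⁻¹ := by rw [this]
      _ = 1 := by group

/-- `b a b⁻¹ = a c` with `c ∈ [A, B]`. -/
theorem conj_eq_mul_comm {a b : G} (ha : a ∈ A) (hb : b ∈ B) :
    ∃ c ∈ ⁅A, B⁆, b * a * b⁻¹ = a * c :=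
  ⟨a⁻¹ * b * a⁻¹⁻¹ * b⁻¹, comm_mem_commutator (A.inv_mem ha) hb, by group⟩

theorem conjBy_le_sup_commutator {b : G} (hb : b ∈ B) : conjBy A b ≤ A ⊔ ⁅A, B⁆ := by
  rintro _ ⟨a, ha, rfl⟩
  obtain ⟨c, hc, e⟩ := conj_eq_mul_comm ha hb
  simp only [MulEquiv.coe_toMonoidHom, MulAut.conj_apply, e]
  exact Subgroup.mul_mem _ (Subgroup.mem_sup_left ha) (Subgroup.mem_sup_right hc)

section
variable (hS : IsRootSubgroupSet S)
include hS

theorem rs_comm (hA : A ∈ S) {a a' : G} (ha : a ∈ A) (ha' : a' ∈ A) : a * a' = a' * a :=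
  isMulCommutative_iff.1 (hS.commutative A hA) a ha a' ha'

theorem rs_commutator_self (hA : A ∈ S) : ⁅A, A⁆ = ⊥ :=
  commutator_eq_bot_iff.2 fun _ ha _ ha' => rs_comm hS hA ha ha'

theorem cc_line_comm (hA : A ∈ S) (h : RootCommutatorCase S A B) :
    ∀ x ∈ A ⊔ ⁅A, B⁆, ∀ y ∈ A ⊔ ⁅A, B⁆, x * y = y * x := by
  intro x hx
  refine commute_sup (fun a ha => ?_) (fun c hc => ?_)
  · exact (commute_sup (fun a' ha' => rs_comm hS hA ha ha')
      (fun c hc => (cc_comm_left h hc ha).symm) x hx).symm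
  · exact (commute_sup (fun a' ha' => cc_comm_left h hc ha')
      (fun c' hc' => rs_comm hS h.1 hc hc') x hx).symm

theorem cc_conj_commutator (hA : A ∈ S) (h : RootCommutatorCase S A B) {b : G} (hb : b ∈ B) :
    ⁅A, conjBy A b⁆ = ⊥ :=
  commutator_eq_bot_iff.2 fun a ha x hx =>
    cc_line_comm hS hA h a (Subgroup.mem_sup_left ha) x (conjBy_le_sup_commutator hb hx)

/-- If some conjugate of `E` by an element of `A` does not commute with `E`, then `A, E` is a rank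
one pair. -/
theorem rs_r1_of_conj (hA : A ∈ S) (hE : E ∈ S) {a : G} (ha : a ∈ A)
    (h : ⁅E, conjBy E a⁆ ≠ ⊥) : IsRankOnePair A E := by
  rcases hS.pair E hE A hA with h1 | h1 | h1
  · exfalso
    apply h
    have : conjBy E a = E := conjBy_eq_self_iff.2 (Subgroup.centralizer_le_normalizer _
      (Subgroup.mem_centralizer_iff.2 fun e he => commutator_eq_bot_iff.1 h1 e he a ha))
    rw [this]; exact rs_commutator_self hS hE
  · exact r1_symm h1
  · exact absurd (cc_conj_commutator hS hE h1 ha) h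

theorem rs_r1_of_conj_r1 (hA : A ∈ S) (hE : E ∈ S) {a : G} (ha : a ∈ A)
    (h : IsRankOnePair E (conjBy E a)) : IsRankOnePair A E :=
  rs_r1_of_conj hS hA hE ha (r1_commutator_ne_bot h)

theorem rs_unip_mem (hA : A ∈ S) (hC : C ∈ unipotentSubgroups A B) : C ∈ S := by
  obtain ⟨x, -, rfl⟩ := hC
  exact hS.conj_mem A hA x

/-- A member of `S` inside a rank one group generated by members of `S` is central there or is one
of the unipotent subgroups. -/
theorem rs_mem_unip_or (hA : A ∈ S) (hC : C ∈ S) (h : IsRankOnePair C D) (hle : A ≤ C ⊔ D) :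
    A ∈ unipotentSubgroups C D ∨ ∀ a ∈ A, ∀ x ∈ C ⊔ D, a * x = x * a := by
  by_cases hn : ∀ a ∈ A, ∀ x ∈ C ⊔ D, x * a * x⁻¹ ∈ Subgroup.normalizer (C : Set G)
  · exact Or.inr fun a ha => r1_centralizes_elem h (hn a ha)
  · left
    push Not at hn
    obtain ⟨a, ha, x, hx, hn⟩ := hn
    have hE : conjBy C x⁻¹ ∈ unipotentSubgroups C D :=
      conj_mem_unip (left_mem_unip C D) (Subgroup.inv_mem _ hx)
    have hE' := conj_mem_unip hE (hle ha)
    have hne : conjBy C x⁻¹ ≠ conjBy (conjBy C x⁻¹) a := by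
      intro e
      apply hn
      rw [conjBy_conjBy, eq_comm, conjBy_eq_conjBy_iff] at e
      simpa [mul_assoc] using e
    have h1 := rs_r1_of_conj_r1 hS hA (rs_unip_mem hS hC hE) ha (r1_of_mem_unip h hE hE' hne).1
    obtain ⟨y, hy, e⟩ := r1_right_mem_unip (r1_symm h1)
    rw [e]
    exact conj_mem_unip hE (sup_le (unip_le hE) hle hy)

/-- S5024. -/
theorem rs_pair_le (hA : A ∈ S) (hB : B ∈ S) (hC : C ∈ S) (hAB : IsRankOnePair A B)
    (hCD : IsRankOnePair C D) (hle : A ⊔ B ≤ C ⊔ D) :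
    A ⊔ B = C ⊔ D ∧ unipotentSubgroups A B = unipotentSubgroups C D := by
  have h1 : A ∈ unipotentSubgroups C D := by
    refine (rs_mem_unip_or hS hA hC hCD (le_sup_left.trans hle)).resolve_right fun hc => ?_
    exact r1_commutator_ne_bot hAB (commutator_eq_bot_iff.2 fun a ha b hb =>
      hc a ha b (hle (Subgroup.mem_sup_right hb)))
  have h2 : B ∈ unipotentSubgroups C D := by
    refine (rs_mem_unip_or hS hB hC hCD (le_sup_right.trans hle)).resolve_right fun hc => ?_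
    exact r1_commutator_ne_bot hAB (commutator_eq_bot_iff.2 fun a ha b hb =>
      (hc b hb a (hle (Subgroup.mem_sup_left ha))).symm)
  exact (r1_of_mem_unip hCD h1 h2 hAB.ne).2

/-- If `x ∈ C ∈ S` conjugates `B` like a non-identity element of a rank one partner `A` of `B`, then
`C` is a unipotent subgroup of `⟨A, B⟩`. -/
theorem rs_mem_unip_of_conj_eq (hA : A ∈ S) (hB : B ∈ S) (hC : C ∈ S) (hAB : IsRankOnePair A B)
    {a x : G} (ha : a ∈ A) (ha1 : a ≠ 1) (hx : x ∈ C) (e : conjBy B x = conjBy B a) :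
    IsRankOnePair C B ∧ C ∈ unipotentSubgroups A B := by
  have hne : conjBy B a ≠ B := fun e => ha1 (r1_eq_one_of_norm hAB ha e)
  obtain ⟨h1, h2⟩ := r1_of_conj_ne (r1_symm hAB) (Subgroup.mem_sup_right ha) hne
  have h3 : IsRankOnePair C B := rs_r1_of_conj_r1 hS hC hB hx (e ▸ h1)
  refine ⟨h3, ?_⟩
  have hle : A ⊔ B ≤ C ⊔ B := by
    rw [sup_comm A B, ← h2, ← e]
    exact sup_le le_sup_right (conjBy_le_of_le le_sup_right (Subgroup.mem_sup_left hx))
  rw [(rs_pair_le hS hA hB hC hAB h3 hle).2]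
  exact left_mem_unip C B

/-- S5025. -/
theorem rs_not_rootElement (hA : A ∈ S) (hB : B ∈ S) (hAB : IsRankOnePair A B) {z : G}
    (hzA : ∀ a ∈ A, z * a = a * z) (hzB : ∀ b ∈ B, z * b = b * z) (hz1 : z ≠ 1) {a : G} (ha : a ∈ A)
    (ha1 : a ≠ 1) : z * a ∉ rootElements S := by
  rintro ⟨hne, C, hC, hx⟩
  have e : conjBy B (z * a) = conjBy B a := by
    rw [hzA a ha, ← conjBy_conjBy]
    congr 1
    exact conjBy_eq_self_iff.2 (Subgroup.centralizer_le_normalizer _
      (Subgroup.mem_centralizer_iff.2 fun b hb => (hzB b hb).symm))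
  obtain ⟨-, h2⟩ := rs_mem_unip_of_conj_eq hS hA hB hC hAB ha ha1 hx e
  by_cases hCA : C = A
  · subst hCA
    have hz : z ∈ C := by simpa using C.mul_mem hx (C.inv_mem ha)
    exact hz1 (r1_eq_one_of_commute hAB hz hzB)
  · have h3 := (r1_of_mem_unip hAB h2 (left_mem_unip A B) hCA).1
    exact r1_not_commute h3 hx hne ha ha1 (by rw [mul_assoc, ← mul_assoc a z a, ← hzA a ha, mul_assoc])

/-- S5028. -/
theorem rs_eq_of_mem (hA : A ∈ S) (hD : D ∈ S) (hAD : IsRankOnePair A D) (hB : B ∈ S) {x : G}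
    (hxA : x ∈ A) (hxB : x ∈ B) (hx1 : x ≠ 1) : A = B := by
  obtain ⟨-, h2⟩ := rs_mem_unip_of_conj_eq hS hA hD hB hAD hxA hx1 hxB rfl
  by_contra hne
  have h3 := (r1_of_mem_unip hAD (left_mem_unip A D) h2 hne).1
  have : x ∈ A ⊓ B := ⟨hxA, hxB⟩
  rw [r1_inf_eq_bot h3] at this
  exact hx1 this

/-- If `[A, B] ∈ S` then `(A, B)` is in the commutator case. -/
theorem rs_cc_of_mem (hA : A ∈ S) (hB : B ∈ S) (hC : ⁅A, B⁆ ∈ S) : RootCommutatorCase S A B := by
  rcases hS.pair A hA B hB with h | h | h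
  · exact absurd h (hS.ne_bot _ hC)
  · exfalso
    have hle : ⁅A, B⁆ ≤ A ⊔ B := Subgroup.commutator_le_sup A B
    have hnA : A ≤ Subgroup.normalizer (⁅A, B⁆ : Subgroup G) :=
      Subgroup.normalizer_commutator_ge_left A B
    have hnB : B ≤ Subgroup.normalizer (⁅A, B⁆ : Subgroup G) :=
      Subgroup.normalizer_commutator_ge_right A B
    rcases rs_mem_unip_or hS hC hA h hle with h1 | h1
    · by_cases e : ⁅A, B⁆ = A
      · rw [e] at hnB
        exact r1_not_le_normalizer (r1_symm h) hnB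
      · exact r1_not_le_normalizer (r1_of_mem_unip h (left_mem_unip A B) h1 (Ne.symm e)).1 hnA
    · apply r1_not_le_normalizer (r1_symm h)
      intro b hb
      apply r1_norm_of_commutator h (Subgroup.mem_sup_right hb)
      intro a ha
      apply Subgroup.centralizer_le_normalizer
      refine Subgroup.mem_centralizer_iff.2 fun a' ha' => (h1 _ ?_ a' (Subgroup.mem_sup_left ha')).symm
      rw [Subgroup.commutator_comm]
      exact comm_mem_commutator hb ha
  · exact h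

theorem rs_cc_not_r1 (hA : A ∈ S) (h : RootCommutatorCase S A B) : ¬ IsRankOnePair A B := by
  intro h1
  obtain ⟨b, hb, hb1⟩ := exists_mem_ne_one (r1_right_ne_bot h1)
  have hne : conjBy A b ≠ A := fun e => hb1 (r1_eq_one_of_norm (r1_symm h1) hb e)
  exact r1_commutator_ne_bot (r1_of_conj_ne h1 (Subgroup.mem_sup_right hb) hne).1
    (cc_conj_commutator hS hA h hb)

theorem rs_cc_ne_bot (h : RootCommutatorCase S A B) : ⁅A, B⁆ ≠ ⊥ := hS.ne_bot _ h.1

theorem rs_cc_conj (h : RootCommutatorCase S A B) (hA : A ∈ S) (hB : B ∈ S) (g : G) :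
    RootCommutatorCase S (conjBy A g) (conjBy B g) :=
  rs_cc_of_mem hS (hS.conj_mem A hA g) (hS.conj_mem B hB g)
    (by rw [← conjBy_commutator]; exact hS.conj_mem _ h.1 g)

end

theorem not_isolated_iff (hA : A ∈ S) :
    ¬ IsIsolatedIn (FAdj S) S A ↔ ∃ B ∈ S, IsRankOnePair A B := by
  constructor
  · intro h
    by_contra hc
    push Not at hc
    exact h ⟨hA, fun B => ⟨fun h => hc B h.2.1 h.2.2, fun h => hc B h.1 (r1_symm h.2.2)⟩⟩
  · rintro ⟨B, hB, h⟩ hi
    exact (hi.2 B).1 ⟨hA, hB, h⟩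

end H70
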