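/- Abstract root subgroups: the commutator case, lines and the nilpotent triple lemma. -/
import Cfsg.Agent.H70.Root1
import Cfsg.Agent.H70.Comm

set_option autoImplicit false
open Cfsg

namespace H70

variable {G : Type*} [Group G] {S : Set (Subgroup G)} {A B C D E T : Subgroup G}

theorem conj_mem_rootElements (hS : IsRootSubgroupSet S) {x : G} (hx : x ∈ rootElements S) (g : G) :
    g * x * g⁻¹ ∈ rootElements S := by
  obtain ⟨h1, A, hA, hx⟩ := hx
  exact ⟨by simpa using h1, conjBy A g, hS.conj_mem A hA g, conj_mem_conjBy g hx⟩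

theorem cc_mem_line_iff (h : RootCommutatorCase S A B) {x : G} :
    x ∈ A ⊔ ⁅A, B⁆ ↔ ∃ a ∈ A, ∃ c ∈ ⁅A, B⁆, x = a * c :=
  mem_sup_of_comm fun _ ha _ hc => (cc_comm_left h hc ha).symm

theorem cc_mul_eq_conj (h : RootCommutatorCase S A B) {a c : G} (ha : a ∈ A) (ha1 : a ≠ 1)
    (hc : c ∈ ⁅A, B⁆) : ∃ b ∈ B, a * c = b * a * b⁻¹ := by
  obtain ⟨b, hb, rfl⟩ := cc_surj h (A.inv_mem ha) (by simpa using ha1) hc
  exact ⟨b, hb, by group⟩

theorem cc_mem_line (h : RootCommutatorCase S A B) {x : G} (hx : x ∈ A ⊔ ⁅A, B⁆) :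
    x ∈ ⁅A, B⁆ ∨ ∃ b ∈ B, x ∈ conjBy A b := by
  obtain ⟨a, ha, c, hc, rfl⟩ := (cc_mem_line_iff h).1 hx
  by_cases ha1 : a = 1
  · left; rwa [ha1, one_mul]
  · obtain ⟨b, hb, e⟩ := cc_mul_eq_conj h ha ha1 hc
    right; exact ⟨b, hb, e ▸ conj_mem_conjBy b ha⟩

theorem cc_commutator_conj (h : RootCommutatorCase S A B) {b : G} (hb : b ∈ B) :
    conjBy ⁅A, B⁆ b = ⁅A, B⁆ :=
  conjBy_eq_self_iff.2 (Subgroup.normalizer_commutator_ge_right A B hb)

theorem commutator_le_sup_conjBy (h : RootCommutatorCase S A B) {b : G} (hb : b ∈ B) (hb1 : b ≠ 1) :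
    ⁅A, B⁆ ≤ A ⊔ conjBy A b := by
  rw [← h.2.2.2 b hb hb1, Subgroup.closure_le]
  rintro _ ⟨a, ha, rfl⟩
  have := Subgroup.mul_mem (A ⊔ conjBy A b) (Subgroup.mem_sup_left ha)
    (Subgroup.mem_sup_right (conj_mem_conjBy b (A.inv_mem ha)))
  simpa [mul_assoc] using this

theorem cc_sup_conjBy (h : RootCommutatorCase S A B) {b : G} (hb : b ∈ B) (hb1 : b ≠ 1) :
    A ⊔ conjBy A b = A ⊔ ⁅A, B⁆ :=
  le_antisymm (sup_le le_sup_left (conjBy_le_sup_commutator hb))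
    (sup_le le_sup_left (commutator_le_sup_conjBy h hb hb1))

theorem cc_conjBy_sup (h : RootCommutatorCase S A B) {b : G} (hb : b ∈ B) :
    conjBy A b ⊔ ⁅A, B⁆ = A ⊔ ⁅A, B⁆ := by
  have key : ∀ b ∈ B, conjBy A b ⊔ ⁅A, B⁆ ≤ A ⊔ ⁅A, B⁆ := fun b hb =>
    sup_le (conjBy_le_sup_commutator hb) le_sup_right
  refine le_antisymm (key b hb) ?_
  have := conjBy_mono (key b⁻¹ (B.inv_mem hb)) b
  rwa [conjBy_sup, conjBy_sup, conjBy_cancel_inv, cc_commutator_conj h hb] at this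

section
variable (hS : IsRootSubgroupSet S)
include hS

theorem cc_ne_commutator (h : RootCommutatorCase S A B) : A ≠ ⁅A, B⁆ := by
  intro e
  apply rs_cc_ne_bot hS h
  exact commutator_eq_bot_iff.2 fun a ha b hb => cc_comm_right h (e ▸ ha) hb

theorem cc_mul_mem_rootElements (hA : A ∈ S) (h : RootCommutatorCase S A B) {a c : G} (ha : a ∈ A)
    (ha1 : a ≠ 1) (hc : c ∈ ⁅A, B⁆) : c * a ∈ rootElements S := by
  obtain ⟨b, hb, e⟩ := cc_mul_eq_conj h ha ha1 hc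
  rw [cc_comm_left h hc ha, e]
  exact conj_mem_rootElements hS ⟨ha1, A, hA, ha⟩ b

theorem cc_eq_one_of_commute (hA : A ∈ S) (hD : D ∈ S) (hAD : IsRankOnePair A D)
    (h : RootCommutatorCase S A B) {a b : G} (ha : a ∈ A) (ha1 : a ≠ 1) (hb : b ∈ B)
    (e : a * b = b * a) : b = 1 := by
  by_contra hb1
  have h1 : A = conjBy A b := rs_eq_of_mem hS hA hD hAD (hS.conj_mem A hA b) ha
    (mem_conjBy.2 (by rw [mul_assoc, e, ← mul_assoc, inv_mul_cancel, one_mul]; exact ha)) ha1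
  have h2 := commutator_le_sup_conjBy h hb hb1
  rw [← h1, sup_idem] at h2
  obtain ⟨c, hc, hc1⟩ := exists_mem_ne_one (rs_cc_ne_bot hS h)
  exact cc_ne_commutator hS h (rs_eq_of_mem hS hA hD hAD h.1 (h2 hc) hc hc1)

theorem cc_inf_commutator (hA : A ∈ S) (hD : D ∈ S) (hAD : IsRankOnePair A D)
    (h : RootCommutatorCase S A B) {x : G} (hx : x ∈ A) (hx' : x ∈ ⁅A, B⁆) : x = 1 := by
  by_contra hx1
  exact cc_ne_commutator hS h (rs_eq_of_mem hS hA hD hAD h.1 hx hx' hx1)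

/-- the members of `S` inside the line `A [A, B]`. -/
theorem cc_members (hA : A ∈ S) (hD : D ∈ S) (hAD : IsRankOnePair A D)
    (h : RootCommutatorCase S A B) (hE : E ∈ S) (hle : E ≤ A ⊔ ⁅A, B⁆) :
    E = ⁅A, B⁆ ∨ ∃ b ∈ B, E = conjBy A b := by
  by_cases hc : E ≤ ⁅A, B⁆
  · left
    have hnc : ∀ c ∈ ⁅A, B⁆, c ≠ 1 → ¬ ∀ d ∈ D, c * d = d * c := by
      intro c hc hc1 hcd
      obtain ⟨a, ha, ha1⟩ := exists_mem_ne_one (hS.ne_bot A hA)
      exact rs_not_rootElement hS hA hD hAD (fun a ha => cc_comm_left h hc ha) hcd hc1 ha ha1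
        (cc_mul_mem_rootElements hS hA h ha ha1 hc)
    obtain ⟨e, he, he1⟩ := exists_mem_ne_one (hS.ne_bot E hE)
    rcases hS.pair E hE D hD with h1 | h1 | h1
    · exact absurd (commutator_eq_bot_iff.1 h1 e he) (hnc e (hc he) he1)
    · exact rs_eq_of_mem hS hE hD h1 h.1 he (hc he) he1
    · rcases hS.pair _ h.1 D hD with h2 | h2 | h2
      · exact absurd (commutator_eq_bot_iff.1 h2 e (hc he)) (hnc e (hc he) he1)
      · exact (rs_eq_of_mem hS h.1 hD h2 hE (hc he) he he1).symm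
      · have e1 : ⁅E, D⁆ = ⁅⁅A, B⁆, D⁆ := by
          rw [← h1.2.2.1 e he he1, ← h2.2.2.1 e (hc he) he1]
        refine le_antisymm hc fun c hcc => ?_
        obtain ⟨d, hd, hd1⟩ := exists_mem_ne_one (hS.ne_bot D hD)
        have h3 : d * c * d⁻¹ * c⁻¹ ∈ ⁅D, E⁆ := by
          rw [Subgroup.commutator_comm, e1, Subgroup.commutator_comm]
          exact comm_mem_commutator hd hcc
        obtain ⟨e', he', e2⟩ := cc_surj (cc_symm h1) hd hd1 h3
        have h4 : d * (e'⁻¹ * c) = (e'⁻¹ * c) * d := by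
          have e3 : c * d⁻¹ * c⁻¹ = e' * d⁻¹ * e'⁻¹ := by
            have := congrArg (fun z => d⁻¹ * z) e2
            simpa [mul_assoc] using this
          have e4 : d = c⁻¹ * (c * d⁻¹ * c⁻¹)⁻¹ * c := by group
          calc d * (e'⁻¹ * c) = e'⁻¹ * (e' * d⁻¹ * e'⁻¹)⁻¹ * c := by group
            _ = e'⁻¹ * (c * d⁻¹ * c⁻¹)⁻¹ * c := by rw [e3]
            _ = _ := by group
        have h5 := cc_eq_one_of_commute hS hD hA (r1_symm hAD) (cc_symm h2) hd hd1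
          (Subgroup.mul_mem _ (Subgroup.inv_mem _ (hc he')) hcc) h4
        rw [inv_mul_eq_one] at h5
        exact h5 ▸ he'
  · right
    obtain ⟨x, hx, hx'⟩ := SetLike.not_le_iff_exists.1 hc
    obtain ⟨b, hb, hxb⟩ := (cc_mem_line h (hle hx)).resolve_left hx'
    refine ⟨b, hb, (rs_eq_of_mem hS (hS.conj_mem A hA b) (hS.conj_mem D hD b) (r1_conj hAD b) hE hxb
      hx ?_).symm⟩
    rintro rfl
    exact hx' (Subgroup.one_mem _)

theorem cc_membersIn (hA : A ∈ S) (hD : D ∈ S) (hAD : IsRankOnePair A D)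
    (h : RootCommutatorCase S A B) :
    membersIn S (A ⊔ ⁅A, B⁆) = (fun b : G => conjBy A b) '' (B : Set G) ∪ {⁅A, B⁆} := by
  ext E
  constructor
  · rintro ⟨hE, hle⟩
    rcases cc_members hS hA hD hAD h hE hle with e | ⟨b, hb, e⟩
    · exact Or.inr e
    · exact Or.inl ⟨b, hb, e.symm⟩
  · rintro (⟨b, hb, rfl⟩ | rfl)
    · exact ⟨hS.conj_mem A hA b, conjBy_le_sup_commutator hb⟩
    · exact ⟨h.1, le_sup_right⟩

theorem cc_partition (hA : A ∈ S) (hD : D ∈ S) (hAD : IsRankOnePair A D)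
    (h : RootCommutatorCase S A B) :
    IsSubgroupPartition (A ⊔ ⁅A, B⁆) (membersIn S (A ⊔ ⁅A, B⁆)) := by
  refine ⟨fun C hC => hC.2, fun x hx _ => ?_, fun C hC E hE hne => ?_⟩
  · rcases cc_mem_line h hx with h1 | ⟨b, hb, h1⟩
    · exact ⟨_, ⟨h.1, le_sup_right⟩, h1⟩
    · exact ⟨_, ⟨hS.conj_mem A hA b, conjBy_le_sup_commutator hb⟩, h1⟩
  · rw [Subgroup.eq_bot_iff_forall]
    rintro x ⟨hxC, hxE⟩
    by_contra hx1
    rcases cc_members hS hA hD hAD h hC.1 hC.2 with e | ⟨b, hb, e⟩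
    · rcases cc_members hS hA hD hAD h hE.1 hE.2 with e' | ⟨b, hb, e'⟩
      · exact hne (e.trans e'.symm)
      · subst e'
        exact hne (rs_eq_of_mem hS hE.1 (hS.conj_mem D hD b) (r1_conj hAD b) hC.1 hxE hxC hx1).symm
    · subst e
      exact hne (rs_eq_of_mem hS hC.1 (hS.conj_mem D hD b) (r1_conj hAD b) hE.1 hxC hxE hx1)

theorem cc_left_mem_linePartners (hA : A ∈ S) (hD : D ∈ S) (hAD : IsRankOnePair A D)
    (h : RootCommutatorCase S A B) : A ∈ linePartners S ⁅A, B⁆ := by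
  refine ⟨⟨hA, cc_ne_commutator hS h, commutator_eq_bot_iff.2 fun c hc a ha => cc_comm_left h hc ha⟩,
    ?_⟩
  rw [sup_comm]
  exact cc_partition hS hA hD hAD h

theorem cc_class_two (hA : A ∈ S) (hB : B ∈ S) (h : ⁅A, B⁆ = ⊥ ∨ RootCommutatorCase S A B) :
    ∀ x ∈ A ⊔ B, ∀ y ∈ A ⊔ B, ∀ z ∈ A ⊔ B, x * y * x⁻¹ * y⁻¹ * z = z * (x * y * x⁻¹ * y⁻¹) := by
  intro x hx y hy z hz
  have := comm_mem_of_abelian (fun _ h _ h' => rs_comm hS hA h h') (fun _ h _ h' => rs_comm hS hB h h')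
    x hx y hy
  rcases h with h | h
  · rw [h, Subgroup.mem_bot] at this
    rw [this, one_mul, mul_one]
  · exact h.2.1 _ this z hz

/-- In the triple situation `A` and `b C b⁻¹` do not form a rank one pair. -/
theorem triple_not_r1 (hA : A ∈ S) (hC : C ∈ S) (hAB : RootCommutatorCase S A B)
    (hAC : ∀ a ∈ A, ∀ c ∈ C, a * c = c * a) {b : G} (hb : b ∈ B) (hb1 : b ≠ 1) :
    ¬ IsRankOnePair A (conjBy C b) := by
  intro h
  obtain ⟨a, ha, ha1⟩ := exists_mem_ne_one (hS.ne_bot A hA)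
  have hC' := hS.conj_mem C hC b
  refine rs_not_rootElement hS hA hC' h (z := b * a * b⁻¹) (fun x hx => ?_) (fun x hx => ?_)
    (by simpa using ha1) (A.inv_mem ha) (by simpa using ha1) ⟨fun e => hb1 ?_, _, hAB.1, ?_⟩
  · exact (commutator_eq_bot_iff.1 (cc_conj_commutator hS hA hAB hb) x hx _
      (conj_mem_conjBy b ha)).symm
  · have := congrArg (fun z => b * z * b⁻¹) (hAC a ha _ (mem_conjBy.1 hx))
    simpa [mul_assoc] using this
  · refine cc_eq_one_of_commute hS hA hC' h hAB ha ha1 hb ?_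
    rw [mul_inv_eq_one, mul_inv_eq_iff_eq_mul] at e
    exact e.symm
  · rw [Subgroup.commutator_comm]
    exact comm_mem_commutator hb ha

theorem triple_class_two (hA : A ∈ S) (hC : C ∈ S) (hAB : RootCommutatorCase S A B)
    (hCB : RootCommutatorCase S C B) (hAC : ∀ a ∈ A, ∀ c ∈ C, a * c = c * a) {b : G} (hb : b ∈ B)
    (hb1 : b ≠ 1) : ⁅A, conjBy C b⁆ = ⊥ ∨ RootCommutatorCase S A (conjBy C b) := by
  rcases hS.pair A hA _ (hS.conj_mem C hC b) with h | h | h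
  · exact Or.inl h
  · exact absurd h (triple_not_r1 hS hA hC hAB hAC hb hb1)
  · exact Or.inr h

theorem triple_commute (hA : A ∈ S) (hC : C ∈ S) (hAB : RootCommutatorCase S A B)
    (hCB : RootCommutatorCase S C B) (hAC : ∀ a ∈ A, ∀ c ∈ C, a * c = c * a) {b : G} (hb : b ∈ B) :
    ∀ x ∈ A ⊔ conjBy C b, ∀ y ∈ conjBy A b ⊔ C, x * y = y * x := by
  intro x hx
  refine commute_sup (fun y hy => ?_) (fun y hy => ?_)
  · refine (commute_sup (fun a ha => ?_) (fun c hc => ?_) x hx).symm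
    · exact (commutator_eq_bot_iff.1 (cc_conj_commutator hS hA hAB hb) a ha y hy).symm
    · have := congrArg (fun z => b * z * b⁻¹) (hAC _ (mem_conjBy.1 hy) _ (mem_conjBy.1 hc))
      simpa [mul_assoc] using this
  · refine (commute_sup (fun a ha => (hAC a ha y hy).symm) (fun c hc => ?_) x hx).symm
    exact commutator_eq_bot_iff.1 (cc_conj_commutator hS hC hCB hb) y hy c hc

omit hS in
theorem triple_sup_eq (hAB : RootCommutatorCase S A B) (hCB : RootCommutatorCase S C B) {b : G}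
    (hb : b ∈ B) (hb1 : b ≠ 1) :
    (A ⊔ conjBy C b) ⊔ (conjBy A b ⊔ C) = (A ⊔ ⁅A, B⁆) ⊔ (C ⊔ ⁅C, B⁆) := by
  rw [← cc_sup_conjBy hAB hb hb1, ← cc_sup_conjBy hCB hb hb1]
  ac_rfl

/-- The nilpotent triple lemma. -/
theorem triple_nilpotent (hA : A ∈ S) (hB : B ∈ S) (hC : C ∈ S) (hAB : RootCommutatorCase S A B)
    (hCB : RootCommutatorCase S C B) (hAC : ∀ a ∈ A, ∀ c ∈ C, a * c = c * a) :
    Group.IsNilpotent ↥(A ⊔ B ⊔ C) := by
  obtain ⟨b0, hb0, hb01⟩ := exists_mem_ne_one (hS.ne_bot B hB)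
  have hCA : ∀ c ∈ C, ∀ a ∈ A, c * a = a * c := fun c hc a ha => (hAC a ha c hc).symm
  have hN := class_two_sup (triple_commute hS hA hC hAB hCB hAC hb0)
    (cc_class_two hS hA (hS.conj_mem C hC b0) (triple_class_two hS hA hC hAB hCB hAC hb0 hb01))
    (by rw [sup_comm]
        exact cc_class_two hS hC (hS.conj_mem A hA b0) (triple_class_two hS hC hA hCB hAB hCA hb0 hb01))
  rw [triple_sup_eq hAB hCB hb0 hb01] at hN
  set N := (A ⊔ ⁅A, B⁆) ⊔ (C ⊔ ⁅C, B⁆) with hNdef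
  set T : Set G := (A : Set G) ∪ B ∪ C with hT
  have hcl : Subgroup.closure T = A ⊔ B ⊔ C := by
    rw [hT, Subgroup.closure_union, Subgroup.closure_union, Subgroup.closure_eq, Subgroup.closure_eq,
      Subgroup.closure_eq]
  have hAN : A ≤ N := le_sup_left.trans le_sup_left
  have hCN : C ≤ N := le_sup_left.trans le_sup_right
  have hEN : ⁅A, B⁆ ≤ N := le_sup_right.trans le_sup_left
  have hFN : ⁅C, B⁆ ≤ N := le_sup_right.trans le_sup_right
  have hNR : N ≤ Subgroup.closure T := by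
    rw [hcl]
    refine sup_le (sup_le (le_sup_left.trans le_sup_left)
      ((Subgroup.commutator_le_sup A B).trans le_sup_left)) (sup_le le_sup_right
      ((Subgroup.commutator_le_sup C B).trans (sup_le le_sup_right (le_sup_right.trans le_sup_left))))
  have hcN : ∀ u ∈ N, ∀ v ∈ N, u * v * u⁻¹ * v⁻¹ ∈ N := fun u hu v hv =>
    N.mul_mem (N.mul_mem (N.mul_mem hu hv) (N.inv_mem hu)) (N.inv_mem hv)
  -- commutators of elements centralizing `B`
  have l1 : ∀ u ∈ N, ∀ v ∈ N, (∀ b ∈ B, u * b = b * u) → (∀ b ∈ B, v * b = b * v) →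
      u * v * u⁻¹ * v⁻¹ ∈ lvl T 1 := by
    intro u hu v hv hub hvb
    refine mem_lvl_succ.2 ⟨hNR (hcN u hu v hv), ?_⟩
    rintro t ((ht | ht) | ht)
    · exact comm_mem_lvl_of_commute T 0 (hN u hu v hv t (hAN ht))
    · exact comm_mem_lvl_of_commute T 0
        ((((show Commute u t from hub t ht).mul_left (hvb t ht)).mul_left
          (show Commute u t from hub t ht).inv_left).mul_left (show Commute v t from hvb t ht).inv_left)
    · exact comm_mem_lvl_of_commute T 0 (hN u hu v hv t (hCN ht))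
  have l2 : ∀ u ∈ N, (∀ b ∈ B, u * b = b * u) → ∀ v ∈ N,
      (∀ b ∈ B, ∃ f ∈ N, (∀ b ∈ B, f * b = b * f) ∧ b * v * b⁻¹ = v * f) →
      u * v * u⁻¹ * v⁻¹ ∈ lvl T 2 := by
    intro u hu hub v hv hvb
    refine mem_lvl_succ.2 ⟨hNR (hcN u hu v hv), ?_⟩
    rintro t ((ht | ht) | ht)
    · exact comm_mem_lvl_of_commute T 1 (hN u hu v hv t (hAN ht))
    · obtain ⟨f, hf, hfb, e⟩ := hvb t ht
      have e1 : t * u * t⁻¹ = u := by rw [← hub t ht]; group
      have e2 : u * v * u⁻¹ * v⁻¹ * t * (u * v * u⁻¹ * v⁻¹)⁻¹ * t⁻¹ = f * u * f⁻¹ * u⁻¹ := by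
        calc u * v * u⁻¹ * v⁻¹ * t * (u * v * u⁻¹ * v⁻¹)⁻¹ * t⁻¹
            = u * v * u⁻¹ * v⁻¹ * ((t * v * t⁻¹) * (t * u * t⁻¹) * (t * v * t⁻¹)⁻¹ * (t * u * t⁻¹)⁻¹) := by
              group
          _ = u * v * ((u⁻¹ * f * u⁻¹⁻¹ * f⁻¹) * v⁻¹) * u⁻¹ := by rw [e, e1]; group
          _ = u * (u⁻¹ * f * u⁻¹⁻¹ * f⁻¹) * u⁻¹ := by
              rw [hN _ (N.inv_mem hu) f hf _ (N.inv_mem hv)]; group
          _ = _ := by group
      rw [e2]
      exact l1 f hf u hu hfb hub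
    · exact comm_mem_lvl_of_commute T 1 (hN u hu v hv t (hCN ht))
  have l3 : ∀ {A C : Subgroup G}, A ≤ N → ⁅A, B⁆ ≤ N → C ≤ N → ⁅C, B⁆ ≤ N →
      RootCommutatorCase S A B → RootCommutatorCase S C B → T = (A : Set G) ∪ B ∪ C →
      ∀ e ∈ ⁅A, B⁆, e ∈ lvl T 3 := by
    intro A C hAN hEN hCN hFN hAB hCB hT e he
    refine mem_lvl_succ.2 ⟨hNR (hEN he), fun t ht => ?_⟩
    rw [hT] at ht
    rcases ht with (ht | ht) | ht
    · exact comm_mem_lvl_of_commute _ 2 (cc_comm_left hAB he ht)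
    · exact comm_mem_lvl_of_commute _ 2 (cc_comm_right hAB he ht)
    · refine l2 e (hEN he) (fun b hb => cc_comm_right hAB he hb) t (hCN ht) fun b hb => ?_
      obtain ⟨f, hf, e⟩ := conj_eq_mul_comm ht hb
      exact ⟨f, hFN hf, fun b hb => cc_comm_right hCB hf hb, e⟩
  have hT' : T = (C : Set G) ∪ B ∪ A := by rw [hT]; ac_rfl
  have l4 : ∀ {A C : Subgroup G}, A ∈ S → A ≤ N → (∀ e ∈ ⁅A, B⁆, e ∈ lvl T 3) →
      (∀ a ∈ A, ∀ c ∈ C, a * c = c * a) → T = (A : Set G) ∪ B ∪ C → ∀ a ∈ A, a ∈ lvl T 4 := by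
    intro A C hA hAN h3 hAC hT a ha
    refine mem_lvl_succ.2 ⟨hNR (hAN ha), fun t ht => ?_⟩
    rw [hT] at ht
    rcases ht with (ht | ht) | ht
    · exact comm_mem_lvl_of_commute _ 3 (rs_comm hS hA ha ht)
    · exact h3 _ (comm_mem_commutator ha ht)
    · exact comm_mem_lvl_of_commute _ 3 (hAC a ha t ht)
  have hE3 := l3 hAN hEN hCN hFN hAB hCB hT
  have hF3 := l3 hCN hFN hAN hEN hCB hAB hT'
  rw [← hcl]
  refine isNilpotent_of_lvl (n := 4) ?_
  rintro t ((ht | ht) | ht)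
  · exact l4 hA hAN hE3 hAC hT t ht
  · refine mem_lvl_succ.2 ⟨Subgroup.subset_closure (Or.inl (Or.inr ht)), ?_⟩
    rintro x ((hx | hx) | hx)
    · exact hE3 _ (by rw [Subgroup.commutator_comm]; exact comm_mem_commutator ht hx)
    · exact comm_mem_lvl_of_commute _ 3 (rs_comm hS hB ht hx)
    · exact hF3 _ (by rw [Subgroup.commutator_comm]; exact comm_mem_commutator ht hx)
  · exact l4 hC hCN hF3 hCA hT' t ht

end

end H70
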