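/- Abstract root subgroups: lines. -/
import Cfsg.Agent.H70.Root2

set_option autoImplicit false
open Cfsg

namespace H70

variable {G : Type*} [Group G] {S : Set (Subgroup G)} {A B C D E T U : Subgroup G}

theorem lp_symm (hA : A ∈ S) (h : B ∈ linePartners S A) : A ∈ linePartners S B := by
  refine ⟨⟨hA, h.1.2.1.symm, by rw [Subgroup.commutator_comm]; exact h.1.2.2⟩, ?_⟩
  rw [sup_comm]; exact h.2

theorem lp_comm (h : B ∈ linePartners S A) : ∀ a ∈ A, ∀ b ∈ B, a * b = b * a :=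
  commutator_eq_bot_iff.1 h.1.2.2

theorem lp_exists (h : B ∈ linePartners S A) {x : G} (hx : x ∈ A ⊔ B) (hx1 : x ≠ 1) :
    ∃ T ∈ S, T ≤ A ⊔ B ∧ x ∈ T := by
  obtain ⟨T, hT, hxT⟩ := h.2.2.1 x hx hx1
  exact ⟨T, hT.1, hT.2, hxT⟩

theorem lp_eq_of_mem (h : B ∈ linePartners S A) (hT : T ∈ S) (hTl : T ≤ A ⊔ B) (hU : U ∈ S)
    (hUl : U ≤ A ⊔ B) {x : G} (hxT : x ∈ T) (hxU : x ∈ U) (hx1 : x ≠ 1) : T = U := by
  by_contra hne
  have : x ∈ T ⊓ U := ⟨hxT, hxU⟩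
  rw [h.2.2.2 T ⟨hT, hTl⟩ U ⟨hU, hUl⟩ hne] at this
  exact hx1 this

theorem lp_mul_mem_rootElements (hA : A ∈ S) (h : B ∈ linePartners S A) (hT : T ∈ S)
    (hTl : T ≤ A ⊔ B) (hTA : T ≠ A) {a t : G} (ha : a ∈ A) (ha1 : a ≠ 1) (ht : t ∈ T) :
    t * a ∈ rootElements S := by
  have hne : t * a ≠ 1 := by
    intro e
    have : a ∈ T := by rw [eq_inv_of_mul_eq_one_right e]; exact T.inv_mem ht
    exact hTA (lp_eq_of_mem h hT hTl hA le_sup_left this ha ha1)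
  obtain ⟨U, hU, -, hx⟩ := lp_exists h (Subgroup.mul_mem _ (hTl ht) (Subgroup.mem_sup_left ha)) hne
  exact ⟨hne, U, hU, hx⟩

section
variable (hS : IsRootSubgroupSet S)
include hS

theorem lp_abelian (hA : A ∈ S) (h : B ∈ linePartners S A) :
    ∀ x ∈ A ⊔ B, ∀ y ∈ A ⊔ B, x * y = y * x := by
  intro x hx
  refine commute_sup (fun a ha => ?_) (fun c hc => ?_)
  · exact (commute_sup (fun a' ha' => rs_comm hS hA ha ha') (lp_comm h a ha) x hx).symm
  · exact (commute_sup (fun a' ha' => (lp_comm h a' ha' c hc).symm)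
      (fun c' hc' => rs_comm hS h.1.1 hc hc') x hx).symm

theorem lp_not_commute (hA : A ∈ S) (h : B ∈ linePartners S A) (hC : C ∈ S) (hAC : IsRankOnePair A C)
    (hT : T ∈ S) (hTl : T ≤ A ⊔ B) : ⁅T, C⁆ ≠ ⊥ := by
  by_cases hTA : T = A
  · rw [hTA]; exact r1_commutator_ne_bot hAC
  · intro e
    obtain ⟨a, ha, ha1⟩ := exists_mem_ne_one (hS.ne_bot A hA)
    obtain ⟨t, ht, ht1⟩ := exists_mem_ne_one (hS.ne_bot T hT)
    exact rs_not_rootElement hS hA hC hAC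
      (fun x hx => lp_abelian hS hA h t (hTl ht) x (Subgroup.mem_sup_left hx))
      (commutator_eq_bot_iff.1 e t ht) ht1 ha ha1 (lp_mul_mem_rootElements hA h hT hTl hTA ha ha1 ht)

theorem lp_r1_or_cc (hA : A ∈ S) (h : B ∈ linePartners S A) (hC : C ∈ S) (hAC : IsRankOnePair A C)
    (hT : T ∈ S) (hTl : T ≤ A ⊔ B) : IsRankOnePair T C ∨ RootCommutatorCase S T C :=
  (hS.pair T hT C hC).resolve_left (lp_not_commute hS hA h hC hAC hT hTl)

/-- every line through `A` contains a point in the commutator case with a given opposite `C`. -/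
theorem lp_exists_cc (hA : A ∈ S) (h : B ∈ linePartners S A) (hC : C ∈ S) (hAC : IsRankOnePair A C) :
    ∃ T ∈ S, T ≤ A ⊔ B ∧ RootCommutatorCase S T C := by
  rcases lp_r1_or_cc hS hA h hC hAC h.1.1 le_sup_right with hBC | hBC
  · obtain ⟨c, hc, hc1⟩ := exists_mem_ne_one (hS.ne_bot C hC)
    obtain ⟨a, ha, ha1, ea⟩ := r1_exists_partner (r1_symm hAC) hc hc1
    obtain ⟨b, hb, hb1, eb⟩ := r1_exists_partner (r1_symm hBC) hc hc1
    have hne : b⁻¹ * a ≠ 1 := by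
      intro e
      rw [inv_mul_eq_one] at e
      exact h.1.2.1 (lp_eq_of_mem h h.1.1 le_sup_right hA le_sup_left hb (e ▸ ha) hb1)
    obtain ⟨T, hT, hTl, hx⟩ := lp_exists h (Subgroup.mul_mem _
      (Subgroup.mem_sup_right (B.inv_mem hb)) (Subgroup.mem_sup_left ha)) hne
    refine ⟨T, hT, hTl, (lp_r1_or_cc hS hA h hC hAC hT hTl).resolve_left fun hTC => ?_⟩
    have h1 : conjBy C (b⁻¹ * a) ≠ C := fun e => hne (r1_eq_one_of_norm hTC hx e)
    apply r1_commutator_ne_bot (r1_of_conj_ne (r1_symm hTC) (Subgroup.mem_sup_right hx) h1).1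
    rw [← conjBy_eq_bot_iff (g := b), conjBy_commutator, conjBy_conjBy, mul_inv_cancel_left, ea, eb,
      ← conjBy_commutator, Subgroup.commutator_comm, h.1.2.2, conjBy_bot]
  · exact ⟨B, h.1.1, le_sup_right, hBC⟩

theorem two_cc_eq_one (hT : T ∈ S) (hU : U ∈ S) (hC : C ∈ S) (hTC : RootCommutatorCase S T C)
    (hUC : RootCommutatorCase S U C) (hTU : ∀ t ∈ T, ∀ u ∈ U, t * u = u * t)
    (hAC : IsRankOnePair A C) {x : G} (hxA : x ∈ A) (hx : x ∈ T ⊔ U) : x = 1 := by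
  by_contra hx1
  have h1 : conjBy C x ≠ C := fun e => hx1 (r1_eq_one_of_norm hAC hxA e)
  have hC' : C ≤ T ⊔ C ⊔ U := le_sup_right.trans le_sup_left
  refine r1_not_le_nilpotent (r1_of_conj_ne (r1_symm hAC) (Subgroup.mem_sup_right hxA) h1).1 hC'
    (conjBy_le_of_le hC' ?_) (triple_nilpotent hS hT hC hU hTC hUC hTU)
  exact (sup_le (le_sup_left.trans le_sup_left) le_sup_right : T ⊔ U ≤ _) hx

/-- if `T` is collinear with `A` and special to the opposite `B` then `[A, [T, B]] = T`. -/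
theorem cc_return (hA : A ∈ S) (hB : B ∈ S) (hT : T ∈ S) (hAB : IsRankOnePair A B)
    (hTB : RootCommutatorCase S T B) (hAT : ∀ a ∈ A, ∀ t ∈ T, a * t = t * a)
    (hroot : ∀ a ∈ A, a ≠ 1 → ∀ t ∈ T, t * a ∈ rootElements S) :
    RootCommutatorCase S A ⁅T, B⁆ ∧ ⁅A, ⁅T, B⁆⁆ = T := by
  have hBT := cc_symm hTB
  have hD : ⁅T, B⁆ ∈ S := hTB.1
  have hl := lp_symm hBT.1 (cc_left_mem_linePartners hS hB hA (r1_symm hAB) hBT)
  have hDA : RootCommutatorCase S ⁅T, B⁆ A := by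
    obtain ⟨U, hU, hUl, hUA⟩ := lp_exists_cc hS hB hl hA (r1_symm hAB)
    rcases cc_members hS hB hA (r1_symm hAB) hBT hU hUl with e | ⟨t, ht, e⟩
    · rwa [e, Subgroup.commutator_comm] at hUA
    · exfalso
      apply rs_cc_not_r1 hS hU hUA
      have : conjBy A t = A := conjBy_eq_self_iff.2 (Subgroup.centralizer_le_normalizer _
        (Subgroup.mem_centralizer_iff.2 fun a ha => hAT a ha t ht))
      rw [e, ← this]
      exact r1_conj (r1_symm hAB) t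
  have hAD := cc_symm hDA
  refine ⟨hAD, ?_⟩
  have hle : T ≤ ⁅A, ⁅T, B⁆⁆ := by
    intro t ht
    obtain ⟨a, ha, ha1⟩ := exists_mem_ne_one (hS.ne_bot A hA)
    obtain ⟨b, hb, hb1, e⟩ := r1_exists_partner hAB ha ha1
    obtain ⟨d, hd, ed⟩ := conj_eq_mul_comm ht hb
    obtain ⟨t', ht', et⟩ := conj_eq_mul_comm hd ha
    have h1 : ∀ y ∈ conjBy B a, t * d * y = y * (t * d) := by
      intro y hy
      rw [← e] at hy
      have := congrArg (fun z => b * z * b⁻¹) (hAT _ (mem_conjBy.1 hy) t ht)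
      rw [← ed]
      simpa [mul_assoc] using this.symm
    have h2 : ∀ y ∈ conjBy B a, d * t' * y = y * (d * t') := by
      intro y hy
      have := congrArg (fun z => a * z * a⁻¹) (cc_comm_right hTB hd (mem_conjBy.1 hy))
      rw [← et]
      simpa [mul_assoc] using this
    have hz : t * t'⁻¹ = t * d * (d * t')⁻¹ := by rw [← cc_comm_left hDA ht' hd]; group
    have hzA : ∀ x ∈ A, t * t'⁻¹ * x = x * (t * t'⁻¹) := fun x hx =>
      ((show Commute t x from (hAT x hx t ht).symm).mul_left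
        (show Commute t' x from cc_comm_right hDA ht' hx).inv_left)
    have hzB : ∀ x ∈ B, t * t'⁻¹ * x = x * (t * t'⁻¹) := by
      intro x hx
      have h3 : Commute (t * t'⁻¹) (a * x * a⁻¹) := by
        rw [hz]
        exact (show Commute (t * d) _ from h1 _ (conj_mem_conjBy a hx)).mul_left
          (show Commute (d * t') _ from h2 _ (conj_mem_conjBy a hx)).inv_left
      have h4 : Commute (t * t'⁻¹) a := hzA a ha
      have := (h4.inv_right.mul_right h3).mul_right h4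
      have e : a⁻¹ * (a * x * a⁻¹) * a = x := by group
      rwa [e] at this
    have hz1 : t * t'⁻¹ = 1 := by
      by_contra hz1
      apply rs_not_rootElement hS hA hB hAB hzA hzB hz1 ha ha1
      rw [Subgroup.commutator_comm] at ht'
      obtain ⟨d1, hd1, e1⟩ := cc_mul_eq_conj hAD ha ha1 ht'
      have h5 : Commute (t * t'⁻¹) d1 :=
        (show Commute t d1 from (cc_comm_left hTB hd1 ht).symm).mul_left
          (show Commute t' d1 from cc_comm_right hAD ht' hd1).inv_left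
      have h6 := conj_mem_rootElements hS (hroot a ha ha1 t ht) d1⁻¹
      have h7 : d1⁻¹ * (t * a) * d1⁻¹⁻¹ = t * t'⁻¹ * a := by
        calc d1⁻¹ * (t * a) * d1⁻¹⁻¹ = d1⁻¹ * (t * t'⁻¹) * (t' * a) * d1 := by group
          _ = d1⁻¹ * (t * t'⁻¹) * (d1 * a * d1⁻¹) * d1 := by rw [cc_comm_left hAD ht' ha, e1]
          _ = d1⁻¹ * ((t * t'⁻¹) * d1) * a := by group
          _ = _ := by rw [h5.eq]; group
      rwa [h7] at h6
    rw [mul_inv_eq_one] at hz1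
    rw [hz1, Subgroup.commutator_comm]
    exact ht'
  rcases cc_members hS hA hB hAB hAD hT (hle.trans le_sup_right) with e | ⟨d, hd, e⟩
  · exact e.symm
  · exfalso
    obtain ⟨t, ht, ht1⟩ := exists_mem_ne_one (hS.ne_bot T hT)
    apply ht1
    have h1 : t ∈ conjBy ⁅A, ⁅T, B⁆⁆ d := by rw [cc_commutator_conj hAD hd]; exact hle ht
    have := cc_inf_commutator hS hA hB hAB hAD (mem_conjBy.1 (e ▸ ht)) (mem_conjBy.1 h1)
    have h2 := congrArg (fun z => d * z * d⁻¹) this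
    simpa [mul_assoc] using h2

/-- every line through a non-isolated point comes from the commutator case. -/
theorem lp_structure (hA : A ∈ S) (h : B ∈ linePartners S A) (hC : C ∈ S) (hAC : IsRankOnePair A C) :
    ∃ T ∈ S, RootCommutatorCase S T C ∧ RootCommutatorCase S A ⁅T, C⁆ ∧ ⁅A, ⁅T, C⁆⁆ = T ∧
      A ⊔ T = A ⊔ B := by
  obtain ⟨T, hT, hTl, hTC⟩ := lp_exists_cc hS hA h hC hAC
  have hTA : T ≠ A := fun e => rs_cc_not_r1 hS hT hTC (e ▸ hAC)
  obtain ⟨h1, h2⟩ := cc_return hS hA hC hT hAC hTC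
    (fun a ha t ht => lp_abelian hS hA h a (Subgroup.mem_sup_left ha) t (hTl ht))
    (fun a ha ha1 t ht => lp_mul_mem_rootElements hA h hT hTl hTA ha ha1 ht)
  refine ⟨T, hT, hTC, h1, h2, le_antisymm (sup_le le_sup_left hTl) (sup_le le_sup_left ?_)⟩
  obtain ⟨t, ht, ht1⟩ := exists_mem_ne_one (hS.ne_bot T hT)
  obtain ⟨a, ha, b, hb, e⟩ := (mem_sup_of_comm (lp_comm h)).1 (hTl ht)
  have hb1 : b ≠ 1 := by
    rintro rfl
    rw [mul_one] at e
    exact hTA (lp_eq_of_mem h hT hTl hA le_sup_left ht (e ▸ ha) ht1)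
  have hbl : b ∈ A ⊔ ⁅A, ⁅T, C⁆⁆ := by
    rw [h2]
    have := Subgroup.mul_mem (A ⊔ T) (Subgroup.mem_sup_left (A.inv_mem ha)) (Subgroup.mem_sup_right ht)
    rwa [e, inv_mul_cancel_left] at this
  have hl : A ⊔ ⁅A, ⁅T, C⁆⁆ ≤ A ⊔ B := by rw [h2]; exact sup_le le_sup_left hTl
  rcases cc_mem_line h1 hbl with h3 | ⟨d, hd, h3⟩
  · rw [h2] at h3
    rw [lp_eq_of_mem h h.1.1 le_sup_right hT hTl hb h3 hb1]
    exact le_sup_right
  · rw [lp_eq_of_mem h h.1.1 le_sup_right (hS.conj_mem A hA d)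
      ((conjBy_le_sup_commutator hd).trans hl) hb h3 hb1]
    have := conjBy_le_sup_commutator (A := A) hd
    rwa [h2] at this

omit hS in
theorem cc_normalizes_line (h : RootCommutatorCase S A D) {d : G} (hd : d ∈ D) :
    conjBy (A ⊔ ⁅A, D⁆) d = A ⊔ ⁅A, D⁆ := by
  rw [conjBy_sup, cc_commutator_conj h hd, cc_conjBy_sup h hd]

theorem cc_conj_ne (h : RootCommutatorCase S A D) (hA : A ∈ S) (hC : C ∈ S) (hAC : IsRankOnePair A C)
    {d : G} (hd : d ∈ D) (hd1 : d ≠ 1) : conjBy A d ≠ A := by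
  intro e
  have h2 := commutator_le_sup_conjBy h hd hd1
  rw [e, sup_idem] at h2
  obtain ⟨c, hc, hc1⟩ := exists_mem_ne_one (rs_cc_ne_bot hS h)
  exact hc1 (cc_inf_commutator hS hA hC hAC h (h2 hc) hc)

/-- S5038, in a form with a base pair. -/
theorem lp_two_transitive (hF : ∀ A ∈ S, ∃ B ∈ S, IsRankOnePair A B) (hA : A ∈ S)
    (h : B ∈ linePartners S A) : ∃ T ∈ S, ∃ D ∈ S, RootCommutatorCase S A D ∧ ⁅A, D⁆ = T ∧
      A ⊔ T = A ⊔ B ∧ ∀ C₁ ∈ membersIn S (A ⊔ B), ∀ C₂ ∈ membersIn S (A ⊔ B), C₁ ≠ C₂ →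
        ∃ x ∈ ⨆ E ∈ normalizingMembers S (A ⊔ B), E, conjBy T x = C₁ ∧ conjBy A x = C₂ := by
  obtain ⟨C, hC, hAC⟩ := hF A hA
  obtain ⟨T, hT, hTC, hAD, e1, e2⟩ := lp_structure hS hA h hC hAC
  set D := ⁅T, C⁆ with hDdef
  have hD : D ∈ S := hTC.1
  set K := ⨆ E ∈ normalizingMembers S (A ⊔ B), E with hK
  have hKn : K ≤ Subgroup.normalizer ((A ⊔ B : Subgroup G) : Set G) := iSup₂_le fun E hE => hE.2
  have hDK : D ≤ K := by
    refine le_iSup₂_of_le (f := fun E (_ : E ∈ normalizingMembers S (A ⊔ B)) => E) D ⟨hD, ?_⟩ le_rfl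
    intro d hd
    rw [← conjBy_eq_self_iff, ← e2, ← e1]
    exact cc_normalizes_line hAD hd
  have hmem : ∀ U ∈ membersIn S (A ⊔ B), U ≠ T → ∃ d ∈ D, U = conjBy A d := by
    intro U hU hUT
    have := cc_members hS hA hC hAC hAD hU.1 (by rw [e1, e2]; exact hU.2)
    rw [e1] at this
    exact this.resolve_left hUT
  have hTd : ∀ d ∈ D, conjBy T d = T := fun d hd => by
    rw [← e1]; exact cc_commutator_conj hAD hd
  have hconj : ∀ U ∈ membersIn S (A ⊔ B), ∀ k ∈ K, conjBy U k ∈ membersIn S (A ⊔ B) := by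
    intro U hU k hk
    refine ⟨hS.conj_mem U hU.1 k, ?_⟩
    have := conjBy_mono hU.2 k
    rwa [conjBy_eq_self_iff.2 (hKn hk)] at this
  have hTm : T ∈ membersIn S (A ⊔ B) := ⟨hT, e2 ▸ le_sup_right⟩
  have hmove : ∃ k ∈ K, conjBy T k ≠ T := by
    have hl : A ∈ linePartners S T := e1 ▸ cc_left_mem_linePartners hS hA hC hAC hAD
    obtain ⟨C', hC', hTC'⟩ := hF T hT
    obtain ⟨T', hT', hTC2, hAD', e1', e2'⟩ := lp_structure hS hT hl hC' hTC'
    obtain ⟨d, hd, hd1⟩ := exists_mem_ne_one (hS.ne_bot _ hTC2.1)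
    refine ⟨d, ?_, cc_conj_ne hS hAD' hT hC' hTC' hd hd1⟩
    refine (le_iSup₂_of_le (f := fun E (_ : E ∈ normalizingMembers S (A ⊔ B)) => E) ⁅T', C'⁆
      ⟨hTC2.1, ?_⟩ le_rfl : _ ≤ K) hd
    intro d hd
    rw [← conjBy_eq_self_iff, ← e2, sup_comm A T, ← e2', ← e1']
    simp only [e1']
    have := cc_normalizes_line hAD' hd
    rwa [e1'] at this
  have htr : ∀ U ∈ membersIn S (A ⊔ B), ∃ k ∈ K, conjBy T k = U := by
    intro U hU
    by_cases hUT : U = T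
    · exact ⟨1, K.one_mem, by rw [conjBy_one, hUT]⟩
    · obtain ⟨k, hk, hne⟩ := hmove
      obtain ⟨d, hd, e⟩ := hmem U hU hUT
      obtain ⟨d', hd', e'⟩ := hmem _ (hconj T hTm k hk) hne
      refine ⟨d * d'⁻¹ * k, K.mul_mem (K.mul_mem (hDK hd) (K.inv_mem (hDK hd'))) hk, ?_⟩
      rw [← conjBy_conjBy, e', conjBy_conjBy, e, inv_mul_cancel_right]
  refine ⟨T, hT, D, hD, hAD, e1, e2, fun C₁ h1 C₂ h2 hne => ?_⟩
  obtain ⟨k, hk, e⟩ := htr C₁ h1
  obtain ⟨d, hd, e'⟩ := hmem _ (hconj C₂ h2 k⁻¹ (K.inv_mem hk)) (by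
    intro e'; apply hne; rw [← e, ← e', conjBy_cancel_inv])
  refine ⟨k * d, K.mul_mem hk (hDK hd), ?_, ?_⟩
  · rw [← conjBy_conjBy, hTd d hd, e]
  · rw [← conjBy_conjBy, ← e', conjBy_cancel_inv]

/-- for collinear points `A`, `B` there is `D` with `[A, D] = B`. -/
theorem lp_exists_commutator (hF : ∀ A ∈ S, ∃ B ∈ S, IsRankOnePair A B) (hA : A ∈ S)
    (h : B ∈ linePartners S A) : ∃ D ∈ S, RootCommutatorCase S A D ∧ ⁅A, D⁆ = B := by
  obtain ⟨T, -, D, hD, hAD, e1, -, h2⟩ := lp_two_transitive hS hF hA h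
  obtain ⟨x, -, e3, e4⟩ := h2 B ⟨h.1.1, le_sup_right⟩ A ⟨hA, le_sup_left⟩ h.1.2.1
  refine ⟨conjBy D x, hS.conj_mem D hD x, ?_, ?_⟩
  · have := rs_cc_conj hS hAD hA hD x
    rwa [e4] at this
  · rw [← e3, ← e1, conjBy_commutator, e4]

end

end H70
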