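/- Abstract root subgroups: connected components of the graph of rank one pairs, classes. -/
import Cfsg.Agent.H70.Root3

set_option autoImplicit false
open Cfsg

namespace H70

variable {G : Type*} [Group G] {S : Set (Subgroup G)} {A B C D E T U : Subgroup G}

theorem fadj_symm (h : FAdj S A B) : FAdj S B A := ⟨h.2.1, h.1, r1_symm h.2.2⟩

theorem fpath_symm (h : Relation.ReflTransGen (FAdj S) A B) : Relation.ReflTransGen (FAdj S) B A := by
  induction h with
  | refl => exact Relation.ReflTransGen.refl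
  | tail _ h ih => exact Relation.ReflTransGen.head (fadj_symm h) ih

theorem fpath_mem (hA : A ∈ S) (h : Relation.ReflTransGen (FAdj S) A B) : B ∈ S := by
  induction h with
  | refl => exact hA
  | tail _ h _ => exact h.2.1

theorem componentOf_eq (h : Relation.ReflTransGen (FAdj S) A B) :
    componentOf (FAdj S) S A = componentOf (FAdj S) S B := by
  ext C
  exact and_congr_right fun _ => ⟨fun h' => (fpath_symm h).trans h', fun h' => h.trans h'⟩

theorem exists_r1_of_fpath (h : Relation.ReflTransGen (FAdj S) A B) (hne : B ≠ A) :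
    ∃ C ∈ S, IsRankOnePair A C := by
  rcases h.cases_head with e | ⟨C, hC, -⟩
  · exact absurd e.symm hne
  · exact ⟨C, hC.2.1, hC.2.2⟩

theorem fpath_isConj (h : Relation.ReflTransGen (FAdj S) A B) : ∃ g : G, B = conjBy A g := by
  induction h with
  | refl => exact ⟨1, (conjBy_one A).symm⟩
  | tail _ h ih =>
    obtain ⟨g, rfl⟩ := ih
    obtain ⟨x, -, e⟩ := r1_right_mem_unip h.2.2
    exact ⟨x * g, by rw [e, conjBy_conjBy]⟩

/-- induction principle for a group generated by a family of subgroups. -/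
theorem iSup_induction_of_top {P : G → Prop} (hS : (⨆ A ∈ S, A) = ⊤) (h1 : P 1)
    (hmul : ∀ A ∈ S, ∀ a ∈ A, ∀ g, P g → P (a * g)) (g : G) : P g := by
  have hg : g ∈ ⨆ A ∈ S, A := hS ▸ Subgroup.mem_top g
  have key : ∀ g ∈ ⨆ A ∈ S, A, ∀ x, P x → P (g * x) := by
    intro g hg
    rw [iSup_subtype'] at hg
    exact Subgroup.iSup_induction (C := fun g => ∀ x, P x → P (g * x)) _ hg
      (fun A a ha => hmul A A.2 a ha) (fun x hx => by rwa [one_mul])
      (fun a b iha ihb x hx => by rw [mul_assoc]; exact iha _ (ihb _ hx))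
  simpa using key g hg 1 h1

section
variable (hS : IsRootSubgroupSet S)
include hS

theorem fpath_conj (h : Relation.ReflTransGen (FAdj S) A B) (g : G) :
    Relation.ReflTransGen (FAdj S) (conjBy A g) (conjBy B g) := by
  induction h with
  | refl => exact Relation.ReflTransGen.refl
  | tail _ h ih => exact ih.tail ⟨hS.conj_mem _ h.1 g, hS.conj_mem _ h.2.1 g, r1_conj h.2.2 g⟩

theorem fpath_conj_root (hA : A ∈ S) (hC : C ∈ S) (hAC : IsRankOnePair A C) (hE : E ∈ S) {e : G}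
    (he : e ∈ E) : Relation.ReflTransGen (FAdj S) A (conjBy A e) := by
  have hA' := hS.conj_mem A hA e
  rcases hS.pair A hA E hE with h | h | h
  · rw [conjBy_eq_self_iff.2 (Subgroup.centralizer_le_normalizer _
      (Subgroup.mem_centralizer_iff.2 fun a ha => commutator_eq_bot_iff.1 h a ha e he))]
  · by_cases e1 : conjBy A e = A
    · rw [e1]
    · exact Relation.ReflTransGen.single ⟨hA, hA', (r1_of_conj_ne h (Subgroup.mem_sup_right he) e1).1⟩
  · have hl := lp_symm h.1 (cc_left_mem_linePartners hS hA hC hAC h)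
    have hC' := hS.conj_mem C hC e
    have hAC' := r1_conj hAC e
    have h' := rs_cc_conj hS h hA hE e
    rw [conjBy_of_mem he] at h'
    have hF : ⁅conjBy A e, E⁆ = ⁅A, E⁆ := by
      rw [← cc_commutator_conj h he, conjBy_commutator, conjBy_of_mem he]
    have hl' := lp_symm h'.1 (cc_left_mem_linePartners hS hA' hC' hAC' h')
    rw [hF] at hl'
    have hsup := cc_conjBy_sup h he
    have hab := cc_line_comm hS hA h
    obtain ⟨a, ha, ha1⟩ := exists_mem_ne_one (hS.ne_bot A hA)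
    obtain ⟨a', ha', ha1'⟩ := exists_mem_ne_one (hS.ne_bot _ hA')
    have s1 : Relation.ReflTransGen (FAdj S) A C := Relation.ReflTransGen.single ⟨hA, hC, hAC⟩
    have s2 : FAdj S (conjBy C e) (conjBy A e) := ⟨hC', hA', r1_symm hAC'⟩
    rcases lp_r1_or_cc hS hA hl hC hAC hA' (conjBy_le_sup_commutator he) with h1 | h1
    · exact s1.tail ⟨hC, hA', r1_symm h1⟩
    rcases lp_r1_or_cc hS hA' hl' hC' hAC' hA (hsup ▸ le_sup_left) with h2 | h2
    · exact (Relation.ReflTransGen.single ⟨hA, hC', h2⟩).tail s2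
    rcases lp_r1_or_cc hS hA hl hC hAC h.1 le_sup_right with h3 | h3
    · rcases lp_r1_or_cc hS hA' hl' hC' hAC' h.1 le_sup_right with h4 | h4
      · exact ((s1.tail ⟨hC, h.1, r1_symm h3⟩).tail ⟨h.1, hC', h4⟩).tail s2
      · exact absurd (two_cc_eq_one hS hA h.1 hC' h2 h4 (fun x hx y hy =>
          hab x (Subgroup.mem_sup_left hx) y (Subgroup.mem_sup_right hy)) hAC' ha'
          (conjBy_le_sup_commutator he ha')) ha1'
    · exact absurd (two_cc_eq_one hS hA' h.1 hC h1 h3 (fun x hx y hy =>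
        hab x (conjBy_le_sup_commutator he hx) y (Subgroup.mem_sup_right hy)) hAC ha
        (hsup ▸ Subgroup.mem_sup_left ha)) ha1

/-- the components of size greater than one are invariant under conjugation. -/
theorem fpath_conj_any (hA : A ∈ S) (hC : C ∈ S) (hAC : IsRankOnePair A C) (g : G) :
    Relation.ReflTransGen (FAdj S) A (conjBy A g) := by
  induction g using iSup_induction_of_top hS.generates with
  | h1 => rw [conjBy_one]
  | hmul E hE e he g ih =>
    rw [← conjBy_conjBy]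
    exact ih.trans (fpath_conj_root hS (hS.conj_mem A hA g) (hS.conj_mem C hC g) (r1_conj hAC g) hE he)

/-- S5031: collinear non-isolated points lie in the same component. -/
theorem fpath_of_linePartner (hA : A ∈ S) (h : B ∈ linePartners S A) (hC : C ∈ S)
    (hAC : IsRankOnePair A C) (hD : D ∈ S) (hBD : IsRankOnePair B D) :
    Relation.ReflTransGen (FAdj S) A B := by
  have hB := h.1.1
  have h' := lp_symm hA h
  have s1 : Relation.ReflTransGen (FAdj S) A C := Relation.ReflTransGen.single ⟨hA, hC, hAC⟩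
  rcases lp_r1_or_cc hS hA h hC hAC hB le_sup_right with h1 | h1
  · exact s1.tail ⟨hC, hB, r1_symm h1⟩
  rcases lp_r1_or_cc hS hB h' hD hBD hA le_sup_right with h2 | h2
  · exact (Relation.ReflTransGen.single ⟨hA, hD, h2⟩).tail ⟨hD, hB, r1_symm hBD⟩
  obtain ⟨a, ha, ha1⟩ := exists_mem_ne_one (hS.ne_bot A hA)
  obtain ⟨b, hb, hb1⟩ := exists_mem_ne_one (hS.ne_bot B hB)
  have hab := lp_abelian hS hA h
  have hne := (lp_mul_mem_rootElements hA h hB le_sup_right h.1.2.1 ha ha1 hb).1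
  obtain ⟨T, hT, hTl, hx⟩ := lp_exists h (Subgroup.mul_mem _ (Subgroup.mem_sup_right hb)
    (Subgroup.mem_sup_left ha)) hne
  rcases lp_r1_or_cc hS hA h hC hAC hT hTl with h3 | h3
  · rcases lp_r1_or_cc hS hB h' hD hBD hT (sup_comm A B ▸ hTl) with h4 | h4
    · exact ((s1.tail ⟨hC, hT, r1_symm h3⟩).tail ⟨hT, hD, h4⟩).tail ⟨hD, hB, r1_symm hBD⟩
    · refine absurd (two_cc_eq_one hS hT hA hD h4 h2 (fun x hx y hy =>
        hab x (hTl hx) y (Subgroup.mem_sup_left hy)) hBD hb ?_) hb1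
      have := Subgroup.mul_mem (T ⊔ A) (Subgroup.mem_sup_left hx) (Subgroup.mem_sup_right (A.inv_mem ha))
      rwa [mul_inv_cancel_right] at this
  · refine absurd (two_cc_eq_one hS hT hB hC h3 h1 (fun x hx y hy =>
      hab x (hTl hx) y (Subgroup.mem_sup_right hy)) hAC ha ?_) ha1
    have := Subgroup.mul_mem (T ⊔ B) (Subgroup.mem_sup_right (B.inv_mem hb)) (Subgroup.mem_sup_left hx)
    rwa [inv_mul_cancel_left] at this

theorem class_not_isolated (hc : IsConjClassOfSubgroups S) (hA : A ∈ S) (hB : B ∈ S)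
    (hAB : IsRankOnePair A B) : ∀ C ∈ S, ∃ D ∈ S, IsRankOnePair C D := by
  intro C hC
  obtain ⟨g, rfl⟩ := hc.2 A hA C hC
  exact ⟨_, hS.conj_mem B hB g, r1_conj hAB g⟩

theorem class_exists_cc (hc : IsConjClassOfSubgroups S) (hnd : IsNondegenerateRootSet S) (hA : A ∈ S) :
    ∃ E ∈ S, ∃ F ∈ S, RootCommutatorCase S E F ∧ ⁅E, F⁆ = A := by
  obtain ⟨E, hE, F, hF, h⟩ := hnd.2.2
  obtain ⟨g, rfl⟩ := hc.2 _ h.1 A hA
  exact ⟨_, hS.conj_mem E hE g, _, hS.conj_mem F hF g, rs_cc_conj hS h hE hF g,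
    (conjBy_commutator E F g).symm⟩

theorem nd_not_isolated (hc : IsConjClassOfSubgroups S) (hnd : IsNondegenerateRootSet S) :
    ∀ C ∈ S, ∃ D ∈ S, IsRankOnePair C D := by
  obtain ⟨A, hA, B, hB, h⟩ := hnd.2.1
  exact class_not_isolated hS hc hA hB h

theorem nd_exists_linePartner (hc : IsConjClassOfSubgroups S) (hnd : IsNondegenerateRootSet S)
    (hA : A ∈ S) : ∃ E, E ∈ linePartners S A := by
  obtain ⟨E, hE, F, hF, h, rfl⟩ := class_exists_cc hS hc hnd hA
  obtain ⟨D, hD, hED⟩ := nd_not_isolated hS hc hnd E hE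
  exact ⟨E, cc_left_mem_linePartners hS hE hD hED h⟩

/-- on a line through `A` there is a line partner of `A` which is special to the opposite `C`. -/
theorem lp_exists_linePartner_cc (hA : A ∈ S) (h : B ∈ linePartners S A) (hC : C ∈ S)
    (hAC : IsRankOnePair A C) : ∃ T ∈ linePartners S A, RootCommutatorCase S T C ∧
      RootCommutatorCase S A ⁅T, C⁆ ∧ ⁅A, ⁅T, C⁆⁆ = T ∧ A ⊔ T = A ⊔ B := by
  obtain ⟨T, hT, h1, h2, h3, h4⟩ := lp_structure hS hA h hC hAC
  refine ⟨T, ?_, h1, h2, h3, h4⟩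
  rw [← h3]
  exact lp_symm h2.1 (cc_left_mem_linePartners hS hA hC hAC h2)

/-- the rank one group `⟨A, B⟩` acting on `T [T, B]` is special. -/
theorem special_of_cc (hA : A ∈ S) (hB : B ∈ S) (hAB : IsRankOnePair A B)
    (hTB : RootCommutatorCase S T B) (hAD : RootCommutatorCase S A ⁅T, B⁆) (e : ⁅A, ⁅T, B⁆⁆ = T) :
    IsSpecialRankOnePair A B := by
  refine ⟨hAB, fun a ha _ b hb _ eab => ?_⟩
  have hT : T ∈ S := e ▸ hAD.1
  obtain ⟨t, ht, ht1⟩ := exists_mem_ne_one (hS.ne_bot T hT)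
  have hTA : ∀ t ∈ T, ∀ a ∈ A, t * a = a * t := fun t ht a ha => cc_comm_left hAD (e.symm ▸ ht) ha
  have hTD : ∀ t ∈ T, ∀ d ∈ ⁅T, B⁆, t * d = d * t := fun t ht d hd => (cc_comm_left hTB hd ht).symm
  have hinf : ∀ x ∈ T, x ∈ ⁅T, B⁆ → x = 1 := by
    intro x hx hx'
    by_contra hx1
    obtain ⟨b, hb, hb1⟩ := exists_mem_ne_one (hS.ne_bot B hB)
    exact hx1 (cc_eq_one_of_commute hS hB hA (r1_symm hAB) (cc_symm hTB) hb hb1 hx
      (cc_comm_right hTB hx' hb).symm)
  obtain ⟨d, hd, ed⟩ := conj_eq_mul_comm ht (B.inv_mem hb)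
  rw [inv_inv] at ed
  -- `a⁻¹ d a = d t`
  have h1 : a⁻¹ * d * a = d * t := by
    obtain ⟨t', ht', et⟩ := conj_eq_mul_comm hd (A.inv_mem ha)
    rw [inv_inv] at et
    rw [Subgroup.commutator_comm, e] at ht'
    have h2 : ∀ y ∈ conjBy B a⁻¹, t * t'⁻¹ * y = y * (t * t'⁻¹) := by
      intro y hy
      have h3 : Commute (t * d) y := by
        have hy' := hy
        rw [← eab] at hy'
        have := congrArg (fun z => b⁻¹ * z * b) (hTA t ht _ (mem_conjBy.1 hy'))
        rw [← ed]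
        simpa [Commute, SemiconjBy, mul_assoc] using this
      have h4 : Commute (d * t') y := by
        have := congrArg (fun z => a⁻¹ * z * a) (cc_comm_right hTB hd (mem_conjBy.1 hy))
        rw [← et]
        simpa [Commute, SemiconjBy, mul_assoc] using this
      have h5 : t * t'⁻¹ = t * d * (d * t')⁻¹ := by rw [← hTD t' ht' d hd]; group
      rw [h5]
      exact h3.mul_left h4.inv_left
    have hz := T.mul_mem ht (T.inv_mem ht')
    obtain ⟨b0, hb0, hb01⟩ := exists_mem_ne_one (hS.ne_bot B hB)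
    have h6 : b0 * (t * t'⁻¹) = (t * t'⁻¹) * b0 := by
      have h3 : Commute (t * t'⁻¹) (a⁻¹ * b0 * a⁻¹⁻¹) := h2 _ (conj_mem_conjBy a⁻¹ hb0)
      have h4 : Commute (t * t'⁻¹) a := hTA _ hz a ha
      have := (h4.mul_right h3).mul_right h4.inv_right
      have e : a * (a⁻¹ * b0 * a⁻¹⁻¹) * a⁻¹ = b0 := by group
      rw [e] at this
      exact this.symm
    have h7 := cc_eq_one_of_commute hS hB hA (r1_symm hAB) (cc_symm hTB) hb0 hb01 hz h6
    rw [mul_inv_eq_one] at h7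
    rw [et, h7]
  have hta : Commute t a := hTA t ht a ha
  have htd : Commute t d := hTD t ht d hd
  have hdb : Commute d b := cc_comm_right hTB hd hb
  have g2 : (a⁻¹ * b⁻¹ * a) * t * (a⁻¹ * b⁻¹ * a)⁻¹ = t * t * d := by
    calc (a⁻¹ * b⁻¹ * a) * t * (a⁻¹ * b⁻¹ * a)⁻¹ = a⁻¹ * b⁻¹ * (a * t) * a⁻¹ * b * a := by group
      _ = a⁻¹ * (b⁻¹ * t * b) * a := by rw [← hta.eq]; group
      _ = a⁻¹ * (t * a) * (a⁻¹ * d * a) := by rw [ed]; group
      _ = _ := by rw [hta.eq, h1, ← htd.eq]; group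
  have g1 : (b⁻¹ * a * b) * t * (b⁻¹ * a * b)⁻¹ = t * t * d := by
    have e1 : b * t * b⁻¹ = t * d⁻¹ := by
      calc b * t * b⁻¹ = b * (t * d) * b⁻¹ * (b * d⁻¹ * b⁻¹) := by group
        _ = _ := by rw [← ed, ← hdb.inv_left.eq]; group
    have e2 : a * d⁻¹ * a⁻¹ = t * d⁻¹ := by
      calc a * d⁻¹ * a⁻¹ = a * t * (d * t)⁻¹ * (t⁻¹ * d * t) * d⁻¹ * a⁻¹ := by
            rw [htd.inv_left.eq]; group
        _ = a * t * (d * t)⁻¹ * a⁻¹ := by rw [htd.inv_left.eq]; group
        _ = _ := by rw [← h1, ← hta.eq]; group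
    calc (b⁻¹ * a * b) * t * (b⁻¹ * a * b)⁻¹ = b⁻¹ * (a * (b * t * b⁻¹) * a⁻¹) * b := by group
      _ = b⁻¹ * ((a * t) * a⁻¹ * (a * d⁻¹ * a⁻¹)) * b := by rw [e1]; group
      _ = (b⁻¹ * t * b) * (b⁻¹ * t * b) * (b⁻¹ * (d⁻¹ * b)) := by rw [e2, ← hta.eq]; group
      _ = t * (d * t) := by rw [ed, hdb.inv_left.eq]; group
      _ = _ := by rw [← htd.eq]; group
  have hg1 : b⁻¹ * a * b ∈ conjBy B a⁻¹ := by rw [← eab]; simpa using conj_mem_conjBy b⁻¹ ha
  have hg2 : a⁻¹ * b⁻¹ * a ∈ conjBy B a⁻¹ := by simpa using conj_mem_conjBy a⁻¹ (B.inv_mem hb)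
  have hc := mem_conjBy.1 (Subgroup.mul_mem _ (Subgroup.inv_mem _ hg2) hg1)
  by_contra hne
  have hc1 : a⁻¹⁻¹ * ((a⁻¹ * b⁻¹ * a)⁻¹ * (b⁻¹ * a * b)) * a⁻¹ ≠ 1 := by
    intro e
    apply hne
    have h2 := congrArg (fun z => (a⁻¹ * b⁻¹ * a) * (a⁻¹ * z * a)) e
    simpa [mul_assoc] using h2
  apply ht1
  refine cc_eq_one_of_commute hS hB hA (r1_symm hAB) (cc_symm hTB) hc hc1 ht ?_
  have h3 : Commute ((a⁻¹ * b⁻¹ * a)⁻¹ * (b⁻¹ * a * b)) t := by
    calc (a⁻¹ * b⁻¹ * a)⁻¹ * (b⁻¹ * a * b) * t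
        = (a⁻¹ * b⁻¹ * a)⁻¹ * ((b⁻¹ * a * b) * t * (b⁻¹ * a * b)⁻¹) * (b⁻¹ * a * b) := by group
      _ = _ := by rw [g1, ← g2]; group
  exact (hta.symm.inv_left.inv_left.mul_left h3).mul_left hta.symm.inv_left

end

end H70
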