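/- Non-degenerate classes of abstract root subgroups: connectivity, generation, weak TI-subsets. -/
import Cfsg.Agent.H70.Root4

set_option autoImplicit false
open Cfsg

namespace H70

variable {G : Type*} [Group G] {S : Set (Subgroup G)} {A B C D E T U : Subgroup G}

theorem membersIn_conj (hS : IsRootSubgroupSet S) {K : Subgroup G} (g : G) :
    C ∈ membersIn S (conjBy K g) ↔ conjBy C g⁻¹ ∈ membersIn S K := by
  constructor
  · rintro ⟨h1, h2⟩
    refine ⟨hS.conj_mem C h1 _, ?_⟩
    have := conjBy_mono h2 g⁻¹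
    rwa [conjBy_inv_cancel] at this
  · rintro ⟨h1, h2⟩
    have h3 := hS.conj_mem _ h1 g
    have h4 := conjBy_mono h2 g
    rw [conjBy_cancel_inv] at h3 h4
    exact ⟨h3, h4⟩

theorem lp_conj (hS : IsRootSubgroupSet S) (h : B ∈ linePartners S A) (g : G) :
    conjBy B g ∈ linePartners S (conjBy A g) := by
  refine ⟨⟨hS.conj_mem B h.1.1 g, fun e => h.1.2.1 (conjBy_inj.1 e), ?_⟩, fun C hC => hC.2, ?_, ?_⟩
  · rw [← conjBy_commutator, h.1.2.2, conjBy_bot]
  · intro x hx hx1
    rw [← conjBy_sup] at hx ⊢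
    obtain ⟨T, hT, hx⟩ := h.2.2.1 _ (mem_conjBy.1 hx) (by
      intro e; apply hx1
      have := congrArg (fun z => g * z * g⁻¹) e
      simpa [mul_assoc] using this)
    refine ⟨conjBy T g, (membersIn_conj hS g).2 (by rwa [conjBy_inv_cancel]), mem_conjBy.2 hx⟩
  · intro C hC D hD hne
    rw [← conjBy_sup] at hC hD
    have := h.2.2.2 _ ((membersIn_conj hS g).1 hC) _ ((membersIn_conj hS g).1 hD)
      (fun e => hne (conjBy_inj.1 e))
    rwa [← conjBy_inf, conjBy_eq_bot_iff] at this

theorem epath_symm (h : Relation.ReflTransGen (EAdj S S) A B) :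
    Relation.ReflTransGen (EAdj S S) B A := by
  induction h with
  | refl => exact Relation.ReflTransGen.refl
  | tail _ h ih => exact Relation.ReflTransGen.head ⟨h.2.1, h.1, lp_symm h.1 h.2.2⟩ ih

section
variable (hS : IsRootSubgroupSet S)
include hS

theorem epath_conj (h : Relation.ReflTransGen (EAdj S S) A B) (g : G) :
    Relation.ReflTransGen (EAdj S S) (conjBy A g) (conjBy B g) := by
  induction h with
  | refl => exact Relation.ReflTransGen.refl
  | tail _ h ih => exact ih.tail ⟨hS.conj_mem _ h.1 g, hS.conj_mem _ h.2.1 g, lp_conj hS h.2.2 g⟩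

theorem cc_conj_mem_linePartners (hA : A ∈ S) (hC : C ∈ S) (hAC : IsRankOnePair A C)
    (h : RootCommutatorCase S A D) {d : G} (hd : d ∈ D) (hd1 : d ≠ 1) :
    conjBy A d ∈ linePartners S A := by
  refine ⟨⟨hS.conj_mem A hA d, cc_conj_ne hS h hA hC hAC hd hd1, cc_conj_commutator hS hA h hd⟩, ?_⟩
  rw [cc_sup_conjBy h hd hd1]
  exact cc_partition hS hA hC hAC h

theorem epath_conj_of_not_r1 (hF : ∀ A ∈ S, ∃ B ∈ S, IsRankOnePair A B) (hA : A ∈ S) (hE : E ∈ S)
    (hn : ¬ IsRankOnePair A E) {e : G} (he : e ∈ E) :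
    Relation.ReflTransGen (EAdj S S) A (conjBy A e) := by
  rcases hS.pair A hA E hE with h | h | h
  · rw [conjBy_eq_self_iff.2 (Subgroup.centralizer_le_normalizer _
      (Subgroup.mem_centralizer_iff.2 fun a ha => commutator_eq_bot_iff.1 h a ha e he))]
  · exact absurd h hn
  · by_cases he1 : e = 1
    · rw [he1, conjBy_one]
    · obtain ⟨C, hC, hAC⟩ := hF A hA
      exact Relation.ReflTransGen.single ⟨hA, hS.conj_mem A hA e,
        cc_conj_mem_linePartners hS hA hC hAC h he he1⟩

/-- S5041. -/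
theorem nd_epath (hc : IsConjClassOfSubgroups S) (hnd : IsNondegenerateRootSet S) :
    IsConnectedFamily (EAdj S S) S := by
  have hF := nd_not_isolated hS hc hnd
  have key : ∀ A ∈ S, ∀ E ∈ S, ∀ e ∈ E, Relation.ReflTransGen (EAdj S S) A (conjBy A e) := by
    intro A hA E hE e he
    by_cases h : IsRankOnePair A E
    · obtain ⟨L, hL⟩ := nd_exists_linePartner hS hc hnd hA
      obtain ⟨T, hT, h1, -⟩ := lp_exists_linePartner_cc hS hA hL hE h
      have s1 : Relation.ReflTransGen (EAdj S S) A T := Relation.ReflTransGen.single ⟨hA, hT.1.1, hT⟩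
      exact (s1.trans (epath_conj_of_not_r1 hS hF hT.1.1 hE (rs_cc_not_r1 hS hT.1.1 h1) he)).trans
        (epath_symm (epath_conj hS s1 e))
    · exact epath_conj_of_not_r1 hS hF hA hE h he
  intro A hA B hB
  obtain ⟨g, rfl⟩ := hc.2 A hA B hB
  clear hB
  induction g using iSup_induction_of_top hS.generates with
  | h1 => rw [conjBy_one]
  | hmul E hE e he g ih =>
    rw [← conjBy_conjBy]
    exact ih.trans (key _ (hS.conj_mem A hA g) E hE e he)

/-- S5042. -/
theorem nd_generation (hc : IsConjClassOfSubgroups S) (hnd : IsNondegenerateRootSet S) (hA : A ∈ S)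
    (hB : B ∈ S) (hAB : IsRankOnePair A B) {H : Subgroup G} (hL : ∀ C ∈ linePartners S A, C ≤ H)
    (hBH : B ≤ H) : H = ⊤ := by
  have hF := nd_not_isolated hS hc hnd
  have hAH : A ≤ H := by
    obtain ⟨L, hL'⟩ := nd_exists_linePartner hS hc hnd hA
    obtain ⟨D, hD, hAD, e⟩ := lp_exists_commutator hS hF hA hL'
    obtain ⟨d, hd, hd1⟩ := exists_mem_ne_one (hS.ne_bot D hD)
    have h1 := cc_conjBy_sup hAD hd
    rw [e] at h1
    exact le_sup_left.trans (h1.symm.le.trans (sup_le
      (hL _ (cc_conj_mem_linePartners hS hA hB hAB hAD hd hd1)) (hL L hL')))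
  have hLc : ∀ h ∈ H, ∀ C ∈ linePartners S (conjBy A h), C ≤ H := by
    intro h hh C hC
    have := lp_conj hS hC h⁻¹
    rw [conjBy_inv_cancel] at this
    have h2 := conjBy_le_of_le (hL _ this) hh
    rwa [conjBy_cancel_inv] at h2
  obtain ⟨x, hx, ex⟩ := r1_right_mem_unip hAB
  have hLB : ∀ C ∈ linePartners S B, C ≤ H := by
    rw [ex]; exact hLc x (sup_le hAH hBH hx)
  have hstep : ∀ L ∈ linePartners S A, ∃ h ∈ H, L = conjBy A h := by
    intro L hL'
    obtain ⟨T, hT, h1, h2, h3, h4⟩ := lp_exists_linePartner_cc hS hA hL' hB hAB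
    have hD : ⁅T, B⁆ ≤ H := by
      rw [Subgroup.commutator_comm]
      exact hLB _ (lp_symm (cc_symm h1).1 (cc_left_mem_linePartners hS hB hA (r1_symm hAB) (cc_symm h1)))
    have hother : ∀ U ∈ S, U ≤ A ⊔ L → U ≠ T → ∃ h ∈ H, U = conjBy A h := by
      intro U hU hUl hUT
      rcases cc_members hS hA hB hAB h2 hU (by rw [h3, h4]; exact hUl) with e | ⟨d, hd, e⟩
      · exact absurd (e.trans h3) hUT
      · exact ⟨d, hD hd, e⟩
    by_cases hLT : L = T
    · subst hLT
      obtain ⟨D, hD', hLD, e⟩ := lp_exists_commutator hS hF hT.1.1 (lp_symm hA hT)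
      obtain ⟨C, hC, hLC⟩ := hF L hT.1.1
      obtain ⟨C', hC', hDC⟩ := hF D hD'
      have hDH : D ≤ H := by
        apply hL
        rw [← e, Subgroup.commutator_comm]
        exact cc_left_mem_linePartners hS hD' hC' hDC (cc_symm hLD)
      obtain ⟨d, hd, hd1⟩ := exists_mem_ne_one (hS.ne_bot D hD')
      obtain ⟨h, hh, e'⟩ := hother (conjBy L d) (hS.conj_mem L hT.1.1 d) (by
        have := conjBy_le_sup_commutator (A := L) hd
        rwa [e, sup_comm] at this) (cc_conj_ne hS hLD hT.1.1 hC hLC hd hd1)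
      refine ⟨d⁻¹ * h, H.mul_mem (H.inv_mem (hDH hd)) hh, ?_⟩
      rw [← conjBy_conjBy, ← e', conjBy_inv_cancel]
    · exact hother L hL'.1.1 le_sup_right hLT
  have hall : ∀ E, Relation.ReflTransGen (EAdj S S) A E → ∃ h ∈ H, E = conjBy A h := by
    intro E hE
    induction hE with
    | refl => exact ⟨1, H.one_mem, (conjBy_one A).symm⟩
    | tail _ h ih =>
      obtain ⟨k, hk, rfl⟩ := ih
      have := lp_conj hS h.2.2 k⁻¹
      rw [conjBy_inv_cancel] at this
      obtain ⟨k', hk', e⟩ := hstep _ this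
      refine ⟨k * k', H.mul_mem hk hk', ?_⟩
      rw [← conjBy_conjBy, ← e, conjBy_cancel_inv]
  rw [eq_top_iff, ← hS.generates]
  refine iSup₂_le fun E hE => ?_
  obtain ⟨h, hh, rfl⟩ := hall E (nd_epath hS hc hnd A hA E hE)
  exact conjBy_le_of_le hAH hh

/-- If `[D, [A, B]] = A` then `B` and `D` form a rank one pair. -/
theorem r1_of_cc_cc (hA : A ∈ S) (hB : B ∈ S) (hD : D ∈ S) (hAB : RootCommutatorCase S A B)
    (e : ⁅D, ⁅A, B⁆⁆ = A) : IsRankOnePair B D := by
  have hDC := rs_cc_of_mem hS hD hAB.1 (e.symm ▸ hA)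
  have hAD : ∀ a ∈ A, ∀ d ∈ D, a * d = d * a := fun a ha d hd => cc_comm_left hDC (e.symm ▸ ha) hd
  rcases hS.pair B hB D hD with h | h | h
  · exfalso
    have h1 : D ≤ Subgroup.normalizer ((⁅A, B⁆ : Subgroup G) : Set G) := by
      intro d hd
      rw [← conjBy_eq_self_iff, conjBy_commutator, conjBy_eq_self_iff.2
        (Subgroup.centralizer_le_normalizer _ (Subgroup.mem_centralizer_iff.2 fun a ha => hAD a ha d hd)),
        conjBy_eq_self_iff.2 (Subgroup.centralizer_le_normalizer _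
          (Subgroup.mem_centralizer_iff.2 fun b hb => commutator_eq_bot_iff.1 h b hb d hd))]
    rw [Subgroup.le_normalizer_iff_commutator_le_right, e] at h1
    exact rs_cc_ne_bot hS hAB (commutator_eq_bot_iff.2 fun a ha b hb => cc_comm_right hAB (h1 ha) hb)
  · exact h
  · exfalso
    have hn := triple_nilpotent hS hA hB hD hAB (cc_symm h) hAD
    obtain ⟨n, hn⟩ := (Subgroup.isNilpotent_iff_lowerCentralSeries _).1 hn
    have key : ∀ k, A ≤ (A ⊔ B ⊔ D).lowerCentralSeries k ∧ ⁅A, B⁆ ≤ (A ⊔ B ⊔ D).lowerCentralSeries k := by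
      intro k
      induction k with
      | zero => exact ⟨le_sup_left.trans le_sup_left, (Subgroup.commutator_le_sup A B).trans le_sup_left⟩
      | succ k ih =>
        rw [Subgroup.lowerCentralSeries_succ]
        refine ⟨?_, Subgroup.commutator_mono ih.1 (le_sup_right.trans le_sup_left)⟩
        conv_lhs => rw [← e, Subgroup.commutator_comm]
        exact Subgroup.commutator_mono ih.2 le_sup_right
    have := (key n).1
    rw [hn, le_bot_iff] at this
    exact hS.ne_bot A hA this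

/-- For `A, B` in the commutator case some member of `S` commutes with `B` and is opposite to `A`. -/
theorem cc_exists_r1_commute (hF : ∀ A ∈ S, ∃ B ∈ S, IsRankOnePair A B) (hA : A ∈ S) (hB : B ∈ S)
    (h : RootCommutatorCase S A B) : ∃ E ∈ S, IsRankOnePair A E ∧ ⁅B, E⁆ = ⊥ := by
  obtain ⟨C, hC, hBC⟩ := hF B hB
  have h' := cc_symm h
  obtain ⟨D, hD, h1, e⟩ := lp_exists_commutator hS hF h'.1 (cc_left_mem_linePartners hS hB hC hBC h')
  refine ⟨D, hD, r1_of_cc_cc hS hB hA hD h' (by rw [Subgroup.commutator_comm, e]), ?_⟩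
  rw [← e]
  exact commutator_eq_bot_iff.2 fun c hc d hd => cc_comm_right h1 hc hd

end

end H70
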