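/- Abstract root subgroups: inclusions between centralizer sets and between sets of opposites. -/
import Cfsg.Agent.H70.Root5

set_option autoImplicit false
open Cfsg

namespace H70

variable {G : Type*} [Group G] {S : Set (Subgroup G)} {A B C D E T U : Subgroup G}

theorem preorder_aux {R : Subgroup G → Subgroup G → Prop}
    (hconj : ∀ U V g, R U V → R (conjBy U g) (conjBy V g)) (hAE : IsRankOnePair A E)
    (hCE : IsRankOnePair C E) (h : R A C) {a : G} (ha : a ∈ A) (ha1 : a ≠ 1) :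
    ∃ c ∈ C, c ≠ 1 ∧ R (conjBy E (c⁻¹ * a)) E ∧
      ∃ e : G, conjBy A e = conjBy E a ∧ conjBy C e = conjBy E c := by
  obtain ⟨e, he, he1, e1⟩ := r1_exists_partner hAE ha ha1
  obtain ⟨c, hc, hc1, e2⟩ := r1_exists_partner (r1_symm hCE) he he1
  refine ⟨c, hc, hc1, ?_, e, e1, e2.symm⟩
  have := hconj _ _ c⁻¹ (hconj _ _ e h)
  rwa [e1, ← e2, conjBy_inv_cancel, conjBy_conjBy] at this

theorem preorder_symm {R : Subgroup G → Subgroup G → Prop}
    (hconj : ∀ U V g, R U V → R (conjBy U g) (conjBy V g)) (htr : ∀ U V W, R U V → R V W → R U W)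
    (hAE : IsRankOnePair A E) (hCE : IsRankOnePair C E) (h : R A C)
    (hAC : ∀ a ∈ A, ∀ c ∈ C, a * c = c * a) (hC : ∀ c ∈ C, R (conjBy E c) E → c = 1) : R C A := by
  obtain ⟨a, ha, ha1⟩ := exists_mem_ne_one (r1_left_ne_bot hAE)
  obtain ⟨c, hc, -, h1, e, e1, e2⟩ := preorder_aux hconj hAE hCE h ha ha1
  obtain ⟨c', hc', -, h2, -⟩ := preorder_aux hconj hAE hCE h (A.inv_mem ha) (by simpa using ha1)
  have h3 := htr _ _ _ (hconj _ _ (c⁻¹ * a) h2) h1
  rw [conjBy_conjBy] at h3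
  have e3 : c⁻¹ * a * (c'⁻¹ * a⁻¹) = c⁻¹ * c'⁻¹ := by
    rw [mul_assoc, ← mul_assoc a, hAC a ha _ (C.inv_mem hc')]; group
  rw [e3] at h3
  have e4 := hC _ (C.mul_mem (C.inv_mem hc) (C.inv_mem hc')) h3
  rw [inv_mul_eq_one] at e4
  have h4 := hconj _ _ a h2
  rw [conjBy_conjBy, ← e4, ← mul_assoc, hAC a ha c hc, mul_inv_cancel_right, ← e1, ← e2] at h4
  have h5 := hconj _ _ e⁻¹ h4
  rwa [conjBy_inv_cancel, conjBy_inv_cancel] at h5

theorem mem_centralizingMembers : E ∈ centralizingMembers S A ↔ E ∈ S ∧ ⁅E, A⁆ = ⊥ := by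
  rw [Subgroup.commutator_eq_bot_iff_le_centralizer]; rfl

section
variable (hS : IsRootSubgroupSet S)
include hS

theorem centralizingMembers_conj (h : centralizingMembers S A ⊆ centralizingMembers S C) (g : G) :
    centralizingMembers S (conjBy A g) ⊆ centralizingMembers S (conjBy C g) := by
  intro E hE
  rw [mem_centralizingMembers] at hE ⊢
  have := mem_centralizingMembers.1 (h (mem_centralizingMembers.2 ⟨hS.conj_mem E hE.1 g⁻¹, by
    rw [← conjBy_eq_bot_iff (g := g), conjBy_commutator, conjBy_cancel_inv]; exact hE.2⟩))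
  refine ⟨hE.1, ?_⟩
  rw [← conjBy_eq_bot_iff (g := g⁻¹), conjBy_commutator, conjBy_inv_cancel]; exact this.2

theorem rankOnePartners_conj (h : rankOnePartners S A ⊆ rankOnePartners S C) (g : G) :
    rankOnePartners S (conjBy A g) ⊆ rankOnePartners S (conjBy C g) := by
  intro E hE
  have h1 := r1_conj hE.2 g⁻¹
  rw [conjBy_inv_cancel] at h1
  have h2 := r1_conj (h ⟨hS.conj_mem E hE.1 g⁻¹, h1⟩).2 g
  rw [conjBy_cancel_inv] at h2
  exact ⟨hE.1, h2⟩

/-- if `C_S(A) ⊆ C_S(C)` then every opposite of `C` is an opposite of `A`. -/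
theorem r1_of_cent_subset (hA : A ∈ S) (hC : C ∈ S) (hE : E ∈ S) (hCE : IsRankOnePair C E)
    (h : centralizingMembers S A ⊆ centralizingMembers S C) : IsRankOnePair A E := by
  rcases hS.pair E hE A hA with h1 | h1 | h1
  · exact absurd (mem_centralizingMembers.1 (h (mem_centralizingMembers.2 ⟨hE, h1⟩))).2
      (r1_commutator_ne_bot (r1_symm hCE))
  · exact r1_symm h1
  · exfalso
    have h2 := (mem_centralizingMembers.1 (h (mem_centralizingMembers.2 ⟨h1.1,
      commutator_eq_bot_iff.2 fun c hc a ha => cc_comm_right h1 hc ha⟩))).2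
    exact lp_not_commute hS hE (lp_symm h1.1 (cc_left_mem_linePartners hS hE hC (r1_symm hCE) h1)) hC
      (r1_symm hCE) h1.1 le_sup_right h2

theorem cent_subset_symm (hA : A ∈ S) (hC : C ∈ S) (hE : E ∈ S) (hCE : IsRankOnePair C E)
    (h : centralizingMembers S A ⊆ centralizingMembers S C) :
    centralizingMembers S C ⊆ centralizingMembers S A := by
  refine preorder_symm (R := fun U V => centralizingMembers S U ⊆ centralizingMembers S V)
    (fun U V g h => centralizingMembers_conj hS h g) (fun U V W h1 h2 => h1.trans h2)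
    (r1_of_cent_subset hS hA hC hE hCE h) hCE h (commutator_eq_bot_iff.1 (mem_centralizingMembers.1
      (h (mem_centralizingMembers.2 ⟨hA, rs_commutator_self hS hA⟩))).2) fun c hc hR => ?_
  by_contra hc1
  have h1 : conjBy E c ≠ E := fun e => hc1 (r1_eq_one_of_norm hCE hc e)
  have hE' := hS.conj_mem E hE c
  exact r1_commutator_ne_bot (r1_symm (r1_of_conj_ne (r1_symm hCE) (Subgroup.mem_sup_right hc) h1).1)
    (mem_centralizingMembers.1 (hR (mem_centralizingMembers.2 ⟨hE', rs_commutator_self hS hE'⟩))).2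

omit hS in
theorem opp_conj_eq_one (hE : E ∈ S) (hCE : IsRankOnePair C E) {c : G} (hc : c ∈ C)
    (hR : rankOnePartners S (conjBy E c) ⊆ rankOnePartners S E) : c = 1 := by
  by_contra hc1
  have h1 : conjBy E c ≠ E := fun e => hc1 (r1_eq_one_of_norm hCE hc e)
  exact (hR ⟨hE, r1_symm (r1_of_conj_ne (r1_symm hCE) (Subgroup.mem_sup_right hc) h1).1⟩).2.ne rfl

theorem lp_not_opp_subset (hF : ∀ A ∈ S, ∃ B ∈ S, IsRankOnePair A B) (hA : A ∈ S)
    (h : B ∈ linePartners S A) : ¬ rankOnePartners S A ⊆ rankOnePartners S B := by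
  intro hR
  obtain ⟨U, hU, hAU⟩ := hF A hA
  obtain ⟨T, hT, hTl, hTU⟩ := lp_exists_cc hS hA h hU hAU
  have hTA : T ≠ A := fun e => rs_cc_not_r1 hS hT hTU (e ▸ hAU)
  obtain ⟨T0, -, -, -, -, -, -, h2⟩ := lp_two_transitive hS hF hA h
  obtain ⟨x, -, e1, e2⟩ := h2 B ⟨h.1.1, le_sup_right⟩ A ⟨hA, le_sup_left⟩ h.1.2.1
  obtain ⟨y, -, e3, e4⟩ := h2 T ⟨hT, hTl⟩ A ⟨hA, le_sup_left⟩ hTA
  have h3 := rankOnePartners_conj hS (rankOnePartners_conj hS hR x⁻¹) y
  rw [← e1, conjBy_inv_cancel, e3] at h3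
  nth_rewrite 1 [← e2] at h3
  rw [conjBy_inv_cancel, e4] at h3
  exact rs_cc_not_r1 hS hT hTU (h3 ⟨hU, hAU⟩).2

theorem commute_of_opp_subset (hF : ∀ A ∈ S, ∃ B ∈ S, IsRankOnePair A B) (hA : A ∈ S) (hC : C ∈ S)
    (h : rankOnePartners S A ⊆ rankOnePartners S C) : ⁅A, C⁆ = ⊥ := by
  rcases hS.pair C hC A hA with h1 | h1 | h1
  · rwa [Subgroup.commutator_comm]
  · exact absurd rfl (h ⟨hC, r1_symm h1⟩).2.ne
  exfalso
  obtain ⟨E, hE, hAE⟩ := hF A hA
  have hCE := (h ⟨hE, hAE⟩).2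
  have hconj : ∀ a ∈ A, IsRankOnePair (conjBy C a) E := by
    intro a ha
    have h2 := r1_conj hAE a⁻¹
    rw [conjBy_of_mem (A.inv_mem ha)] at h2
    have h3 := r1_conj (h ⟨hS.conj_mem E hE _, h2⟩).2 a
    rwa [conjBy_cancel_inv] at h3
  obtain ⟨a, ha, ha1⟩ := exists_mem_ne_one (hS.ne_bot A hA)
  obtain ⟨c, hc, -, h2, -⟩ := preorder_aux (R := fun U V => rankOnePartners S U ⊆ rankOnePartners S V)
    (fun U V g h => rankOnePartners_conj hS h g) hAE hCE h ha ha1
  obtain ⟨c', hc', hc1, h3, -⟩ := preorder_aux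
    (R := fun U V => rankOnePartners S U ⊆ rankOnePartners S V)
    (fun U V g h => rankOnePartners_conj hS h g) hAE hCE h (A.inv_mem ha) (by simpa using ha1)
  have h4 := (rankOnePartners_conj hS h3 (c⁻¹ * a)).trans h2
  rw [conjBy_conjBy] at h4
  obtain ⟨f, hf, ef⟩ := conj_eq_mul_comm (C.inv_mem hc') ha
  have hf1 : f ≠ 1 := by
    rintro rfl
    rw [mul_one, mul_inv_eq_iff_eq_mul] at ef
    exact ha1 (cc_eq_one_of_commute hS hC hE hCE h1 (C.inv_mem hc') (by simpa using hc1) ha ef.symm)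
  have e3 : c⁻¹ * a * (c'⁻¹ * a⁻¹) = c⁻¹ * c'⁻¹ * f := by rw [mul_assoc c⁻¹ c'⁻¹, ← ef]; group
  rw [e3] at h4
  by_cases hcc : c⁻¹ * c'⁻¹ = 1
  · rw [hcc, one_mul] at h4
    have hl := lp_symm h1.1 (cc_left_mem_linePartners hS hC hE hCE h1)
    obtain ⟨T, hT, hTl, hTE⟩ := lp_exists_cc hS hC hl hE hCE
    rcases cc_members hS hC hE hCE h1 hT hTl with e | ⟨a', ha', e⟩
    · rw [e] at hTE
      exact lp_not_opp_subset hS hF (hS.conj_mem E hE f)
        (lp_symm hE (cc_conj_mem_linePartners hS hE hA (r1_symm hAE) (cc_symm hTE) hf hf1)) h4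
    · exact rs_cc_not_r1 hS hT hTE (e ▸ hconj a' ha')
  · have hm := C.mul_mem (C.inv_mem hc) (C.inv_mem hc')
    obtain ⟨a', ha', e⟩ := cc_mul_eq_conj h1 hm hcc hf
    have := opp_conj_eq_one hE (hconj a' ha') (e ▸ conj_mem_conjBy a' hm) h4
    rw [e] at this
    exact hcc (by simpa using this)

theorem opp_subset_symm (hF : ∀ A ∈ S, ∃ B ∈ S, IsRankOnePair A B) (hA : A ∈ S) (hC : C ∈ S)
    (h : rankOnePartners S A ⊆ rankOnePartners S C) : rankOnePartners S C ⊆ rankOnePartners S A := by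
  obtain ⟨E, hE, hAE⟩ := hF A hA
  have hCE := (h ⟨hE, hAE⟩).2
  exact preorder_symm (R := fun U V => rankOnePartners S U ⊆ rankOnePartners S V)
    (fun U V g h => rankOnePartners_conj hS h g) (fun U V W h1 h2 => h1.trans h2) hAE hCE h
    (commutator_eq_bot_iff.1 (commute_of_opp_subset hS hF hA hC h))
    fun c hc hR => opp_conj_eq_one hE hCE hc hR

/-- a degenerate class with two members has rank one pairs. -/
theorem deg_not_isolated (hc : IsConjClassOfSubgroups S) (hd : IsDegenerateRootSet S) (hA : A ∈ S)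
    (hC : C ∈ S) (hne : A ≠ C) : ∀ C ∈ S, ∃ D ∈ S, IsRankOnePair C D := by
  by_cases h : ∃ D ∈ S, IsRankOnePair A D
  · obtain ⟨D, hD, hAD⟩ := h
    exact class_not_isolated hS hc hA hD hAD
  · exfalso
    push Not at h
    have : (⨆ E ∈ S, E) ≤ Subgroup.normalizer (A : Set G) := by
      refine iSup₂_le fun E hE => ?_
      rcases hS.pair E hE A hA with h1 | h1 | h1
      · exact (Subgroup.commutator_eq_bot_iff_le_centralizer.1 h1).trans
          (Subgroup.centralizer_le_normalizer _)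
      · exact absurd (r1_symm h1) (h E hE)
      · exact absurd h1 (hd E hE A hA)
    obtain ⟨g, rfl⟩ := hc.2 A hA C hC
    rw [hS.generates] at this
    exact hne (conjBy_eq_self_iff.2 (this (Subgroup.mem_top g))).symm

end

end H70
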