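/- Root subgroups `1 + k a` attached to a family of square zero elements of an algebra. -/
import Cfsg.Agent.H70.SL2R1
import Cfsg.Agent.H70.Root4

set_option autoImplicit false
open Cfsg Matrix MatrixGroups

namespace H70

open H61

variable (k : Type*) {E G : Type*} [Field k] [Ring E] [Algebra k E] [Group G] (ρ : G →* E)

/-- the group of elements `1 + c a` -/
def sz (a : E) : Subgroup G := Subgroup.closure {g | ∃ c : k, ρ g = 1 + c • a}

/-- a family of square zero elements giving root subgroups -/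
structure SZ (N : Set E) : Prop where
  inj : Function.Injective ρ
  sq : ∀ a ∈ N, a * a = 0
  ne : ∀ a ∈ N, a ≠ 0
  ex : ∀ a ∈ N, ∀ c : k, ∃ g, ρ g = 1 + c • a
  conj : ∀ a ∈ N, ∀ g, ρ g * a * ρ g⁻¹ ∈ N
  smul : ∀ a ∈ N, ∀ c : k, c ≠ 0 → c • a ∈ N
  pair : ∀ a ∈ N, ∀ b ∈ N, a * b = b * a ∨ (∃ l : k, l ≠ 0 ∧ a * b * a = l • a ∧ b * a * b = l • b) ∨
    (a * b * a = 0 ∧ b * a * b = 0 ∧ a * b - b * a ∈ N)

variable {k ρ}

theorem sz_inv {a : E} (aa : a * a = 0) {g : G} {c : k} (h : ρ g = 1 + c • a) : ρ g⁻¹ = 1 + (-c) • a := by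
  have h1 : ρ g * (1 + (-c) • a) = 1 := by
    rw [h]; simp [add_mul, mul_add, aa]
  calc ρ g⁻¹ = ρ g⁻¹ * (ρ g * (1 + (-c) • a)) := by rw [h1, mul_one]
    _ = _ := by rw [← mul_assoc, ← map_mul, inv_mul_cancel, map_one, one_mul]

theorem sz_mul {a : E} (aa : a * a = 0) {g h : G} {c d : k} (hg : ρ g = 1 + c • a) (hh : ρ h = 1 + d • a) :
    ρ (g * h) = 1 + (c + d) • a := by
  rw [map_mul, hg, hh]; simp [add_mul, mul_add, aa, add_smul]; abel

theorem mem_sz {a : E} (aa : a * a = 0) {g : G} : g ∈ sz k ρ a ↔ ∃ c : k, ρ g = 1 + c • a := by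
  refine ⟨fun h => ?_, fun h => Subgroup.subset_closure h⟩
  induction h using Subgroup.closure_induction with
  | mem x hx => exact hx
  | one => exact ⟨0, by simp⟩
  | mul x y _ _ hx hy => exact let ⟨_, hx⟩ := hx; let ⟨_, hy⟩ := hy; ⟨_, sz_mul aa hx hy⟩
  | inv x _ hx => exact let ⟨_, hx⟩ := hx; ⟨_, sz_inv aa hx⟩

theorem sz_smul (a : E) {c : k} (hc : c ≠ 0) : sz k ρ (c • a) = sz k ρ a := by
  unfold sz
  congr 1
  ext g
  exact ⟨fun ⟨d, h⟩ => ⟨d * c, by rw [h, smul_smul]⟩, fun ⟨d, h⟩ => ⟨d * c⁻¹, by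
    rw [h, smul_smul, inv_mul_cancel_right₀ hc]⟩⟩

theorem conj_sq_zero {a : E} (aa : a * a = 0) (g : G) : ρ g * a * ρ g⁻¹ * (ρ g * a * ρ g⁻¹) = 0 := by
  rw [mul_assoc, ← mul_assoc (ρ g⁻¹), ← mul_assoc (ρ g⁻¹), ← map_mul, inv_mul_cancel, map_one, one_mul,
    ← mul_assoc, mul_assoc (ρ g), aa, mul_zero, zero_mul]

theorem rho_conj {a : E} {g x : G} {c : k} (h : ρ x = 1 + c • a) :
    ρ (g * x * g⁻¹) = 1 + c • (ρ g * a * ρ g⁻¹) := by
  rw [map_mul, map_mul, h, mul_add, add_mul, mul_one, ← map_mul, mul_inv_cancel, map_one, mul_smul_comm,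
    smul_mul_assoc]

theorem sz_conj {a : E} (aa : a * a = 0) (g : G) : conjBy (sz k ρ a) g = sz k ρ (ρ g * a * ρ g⁻¹) := by
  ext x
  rw [mem_conjBy, mem_sz aa, mem_sz (conj_sq_zero aa g)]
  constructor
  · rintro ⟨c, h⟩
    exact ⟨c, by simpa [mul_assoc] using rho_conj (g := g) h⟩
  · rintro ⟨c, h⟩
    refine ⟨c, ?_⟩
    have := rho_conj (g := g⁻¹) h
    rwa [inv_inv, ← mul_assoc, ← mul_assoc, ← map_mul, inv_mul_cancel, map_one, one_mul, mul_assoc a, ← map_mul,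
      inv_mul_cancel, map_one, mul_one] at this

theorem sz_subgroupOf {a : E} (aa : a * a = 0) (K : Subgroup G) :
    (sz k ρ a).subgroupOf K = sz k (ρ.comp K.subtype) a := by
  ext x
  rw [Subgroup.mem_subgroupOf, mem_sz aa, mem_sz aa]; rfl

theorem sz_commute (hi : Function.Injective ρ) {a b : E} (aa : a * a = 0) (bb : b * b = 0) (h : a * b = b * a) :
    ⁅sz k ρ a, sz k ρ b⁆ = ⊥ := by
  refine commutator_eq_bot_iff.2 fun x hx y hy => hi ?_
  obtain ⟨c, hc⟩ := (mem_sz aa).1 hx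
  obtain ⟨d, hd⟩ := (mem_sz bb).1 hy
  rw [map_mul, map_mul, hc, hd]
  simp [add_mul, mul_add, h, smul_smul, mul_comm c d]; abel

theorem rho_comm {a b : E} (aa : a * a = 0) (bb : b * b = 0) (h1 : a * b * a = 0) (h2 : b * a * b = 0) {x y : G}
    {c d : k} (hx : ρ x = 1 + c • a) (hy : ρ y = 1 + d • b) :
    ρ (x * y * x⁻¹ * y⁻¹) = 1 + (c * d) • (a * b - b * a) := by
  have h3 : a * (b * a) = 0 := by rw [← mul_assoc, h1]
  have h4 : b * (a * b) = 0 := by rw [← mul_assoc, h2]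
  rw [map_mul, map_mul, map_mul, sz_inv aa hx, sz_inv bb hy, hx, hy]
  simp [add_mul, mul_add, aa, bb, h3, h4, smul_smul, mul_assoc, smul_sub, mul_comm d c]
  abel

namespace SZ

variable {N : Set E} (H : SZ k ρ N)
include H

theorem mem {a : E} (ha : a ∈ N) {g : G} : g ∈ sz k ρ a ↔ ∃ c : k, ρ g = 1 + c • a := mem_sz (H.sq a ha)

theorem eq_one_iff {a : E} (ha : a ∈ N) {g : G} {c : k} (h : ρ g = 1 + c • a) : g = 1 ↔ c = 0 := by
  constructor
  · rintro rfl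
    rw [map_one, left_eq_add] at h
    by_contra hc
    exact H.ne _ (H.smul a ha c hc) h
  · rintro rfl
    exact H.inj (by simpa using h)

theorem commute {a b : E} (ha : a ∈ N) (hb : b ∈ N) (h : a * b = b * a) : ⁅sz k ρ a, sz k ρ b⁆ = ⊥ :=
  sz_commute H.inj (H.sq a ha) (H.sq b hb) h

theorem exists_hom {a b : E} (ha : a ∈ N) (hb : b ∈ N) (h1 : a * b * a = a) (h2 : b * a * b = b) :
    ∃ φ : SL(2, k) →* G, Function.Injective φ ∧ (∀ r, ρ (φ (xu r)) = 1 + r • a) ∧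
      ∀ r, ρ (φ (xl r)) = 1 + r • b := by
  set m : MU k E := muOf (H.sq a ha) (H.sq b hb) h1 h2 with hm
  have hu : ∀ r, (m.hom (xu r) : E) = 1 + r • a := fun r => by rw [m.hom_xu, Algebra.smul_def]; rfl
  have hl : ∀ r, (m.hom (xl r) : E) = 1 + r • b := fun r => by rw [m.hom_xl, Algebra.smul_def]; rfl
  have hi : Function.Injective ρ.toHomUnits := fun x y e => H.inj (congrArg Units.val e)
  have hr : ∀ g, m.hom g ∈ ρ.toHomUnits.range := by
    have : ρ.toHomUnits.range.comap m.hom = ⊤ := sl_eq_top_of_xu_xl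
      (fun r => let ⟨g, hg⟩ := H.ex a ha r; ⟨g, Units.ext (hg.trans (hu r).symm)⟩)
      (fun r => let ⟨g, hg⟩ := H.ex b hb r; ⟨g, Units.ext (hg.trans (hl r).symm)⟩)
    exact fun g => (this ▸ Subgroup.mem_top g : g ∈ ρ.toHomUnits.range.comap m.hom)
  let φ : SL(2, k) →* G := (MonoidHom.ofInjective hi).symm.toMonoidHom.comp (m.hom.codRestrict _ hr)
  have hφ : ∀ g, ρ (φ g) = m.hom g := fun g =>
    congrArg Units.val (MonoidHom.apply_ofInjective_symm hi ⟨m.hom g, hr g⟩)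
  refine ⟨φ, fun x y e => m.hom_injective (fun r hr => ?_) (Units.ext (by rw [← hφ, ← hφ, e])),
    fun r => (hφ _).trans (hu r), fun r => (hφ _).trans (hl r)⟩
  by_contra hc
  exact H.ne _ (H.smul a ha r hc) (by rw [Algebra.smul_def]; exact hr)

theorem psl2 {a b : E} (ha : a ∈ N) (hb : b ∈ N) {l : k} (hl : l ≠ 0) (h1 : a * b * a = l • a)
    (h2 : b * a * b = l • b) : IsPSL2PairOver k (sz k ρ a) (sz k ρ b) := by
  have hb' := H.smul b hb _ (inv_ne_zero hl)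
  obtain ⟨φ, hi, hu, hl'⟩ := H.exists_hom ha hb' (by
    rw [mul_smul_comm, smul_mul_assoc, h1, smul_smul, inv_mul_cancel₀ hl, one_smul]) (by
    rw [mul_smul_comm, smul_mul_assoc, smul_mul_assoc, h2, smul_smul l⁻¹ l, inv_mul_cancel₀ hl, one_smul])
  rw [← sz_smul b (inv_ne_zero hl)]
  convert isPSL2PairOver_of_hom φ hi using 1
  · ext g
    rw [H.mem ha]
    constructor
    · rintro ⟨c, h⟩
      exact ⟨xu c, xu_mem_upper c, H.inj (by rw [hu, h])⟩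
    · rintro ⟨g, hg, rfl⟩
      obtain ⟨c, rfl⟩ := (upperUnipotentSL2_eq k).1 hg
      exact ⟨c, hu c⟩
  · ext g
    rw [H.mem hb']
    constructor
    · rintro ⟨c, h⟩
      exact ⟨xl c, xl_mem_lower c, H.inj (by rw [hl', h])⟩
    · rintro ⟨g, hg, rfl⟩
      obtain ⟨c, rfl⟩ := (lowerUnipotentSL2_eq k).1 hg
      exact ⟨c, hl' c⟩

theorem closure_left {a b : E} (ha : a ∈ N) (hb : b ∈ N) (h1 : a * b * a = 0) (h2 : b * a * b = 0)
    (hc : a * b - b * a ∈ N) {x : G} (hx : x ∈ sz k ρ a) (x1 : x ≠ 1) :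
    Subgroup.closure ((fun y : G => x * y * x⁻¹ * y⁻¹) '' (sz k ρ b : Set G)) = sz k ρ (a * b - b * a) := by
  obtain ⟨c, hc'⟩ := (H.mem ha).1 hx
  have c0 : c ≠ 0 := fun e => x1 ((H.eq_one_iff ha hc').2 e)
  refine le_antisymm ((Subgroup.closure_le _).2 ?_) fun z hz => Subgroup.subset_closure ?_
  · rintro _ ⟨y, hy, rfl⟩
    obtain ⟨d, hd⟩ := (H.mem hb).1 hy
    exact (H.mem hc).2 ⟨_, rho_comm (H.sq a ha) (H.sq b hb) h1 h2 hc' hd⟩
  · obtain ⟨e, he⟩ := (H.mem hc).1 hz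
    obtain ⟨y, hy⟩ := H.ex b hb (c⁻¹ * e)
    exact ⟨y, (H.mem hb).2 ⟨_, hy⟩, H.inj (by
      rw [rho_comm (H.sq a ha) (H.sq b hb) h1 h2 hc' hy, he, mul_inv_cancel_left₀ c0])⟩

theorem ne_bot {a : E} (ha : a ∈ N) : sz k ρ a ≠ ⊥ := by
  obtain ⟨g, hg⟩ := H.ex a ha 1
  intro e
  have : g ∈ sz k ρ a := (H.mem ha).2 ⟨1, hg⟩
  rw [e, Subgroup.mem_bot, H.eq_one_iff ha hg] at this
  exact one_ne_zero this

theorem commutator_eq {a b : E} (ha : a ∈ N) (hb : b ∈ N) (h1 : a * b * a = 0) (h2 : b * a * b = 0)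
    (hc : a * b - b * a ∈ N) : ⁅sz k ρ a, sz k ρ b⁆ = sz k ρ (a * b - b * a) := by
  refine le_antisymm (Subgroup.commutator_le.2 fun x hx y hy => ?_) ?_
  · obtain ⟨c, hc'⟩ := (H.mem ha).1 hx
    obtain ⟨d, hd⟩ := (H.mem hb).1 hy
    exact (H.mem hc).2 ⟨_, rho_comm (H.sq a ha) (H.sq b hb) h1 h2 hc' hd⟩
  · obtain ⟨x, hx, x1⟩ := exists_mem_ne_one (H.ne_bot ha)
    rw [← H.closure_left ha hb h1 h2 hc hx x1, Subgroup.closure_le]
    rintro _ ⟨y, hy, rfl⟩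
    exact comm_mem_commutator hx hy

theorem cc {a b : E} (ha : a ∈ N) (hb : b ∈ N) (h1 : a * b * a = 0) (h2 : b * a * b = 0)
    (hc : a * b - b * a ∈ N) : RootCommutatorCase (sz k ρ '' N) (sz k ρ a) (sz k ρ b) := by
  have e := H.commutator_eq ha hb h1 h2 hc
  have hc' : b * a - a * b ∈ N := by simpa using H.smul _ hc (-1) (by simp)
  refine ⟨⟨_, hc, e.symm⟩, fun c hc1 => commute_sup ?_ ?_, fun x hx x1 => ?_, fun y hy y1 => ?_⟩
  · refine commutator_eq_bot_iff.1 (H.commute hc ha ?_) c (e ▸ hc1)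
    rw [sub_mul, mul_sub, h1, mul_assoc b, H.sq a ha, ← mul_assoc, ← mul_assoc, H.sq a ha, h1]; simp
  · refine commutator_eq_bot_iff.1 (H.commute hc hb ?_) c (e ▸ hc1)
    rw [sub_mul, mul_sub, h2, mul_assoc a, H.sq b hb, ← mul_assoc, ← mul_assoc, H.sq b hb, h2]; simp
  · rw [e, H.closure_left ha hb h1 h2 hc hx x1]
  · rw [Subgroup.commutator_comm, H.commutator_eq hb ha h2 h1 hc', ← H.closure_left hb ha h2 h1 hc' hy y1]
    exact closure_image_inv _ _ _ fun x => by group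

theorem rootSet (hg : (⨆ A ∈ sz k ρ '' N, A) = ⊤) : IsRootSubgroupSet (sz k ρ '' N) := by
  refine ⟨?_, ?_, hg, ?_, ?_⟩
  · rintro _ ⟨a, ha, rfl⟩
    exact Subgroup.commutator_self_eq_bot_iff.1 (H.commute ha ha rfl)
  · rintro _ ⟨a, ha, rfl⟩
    exact H.ne_bot ha
  · rintro _ ⟨a, ha, rfl⟩ g
    exact ⟨_, H.conj a ha g, (sz_conj (H.sq a ha) g).symm⟩
  · rintro _ ⟨a, ha, rfl⟩ _ ⟨b, hb, rfl⟩
    rcases H.pair a ha b hb with h | ⟨l, hl, h1, h2⟩ | ⟨h1, h2, h3⟩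
    · exact Or.inl (H.commute ha hb h)
    · exact Or.inr (Or.inl (psl2Pair_r1 (H.psl2 ha hb hl h1 h2)))
    · exact Or.inr (Or.inr (H.cc ha hb h1 h2 h3))

theorem kRootSet (hg : (⨆ A ∈ sz k ρ '' N, A) = ⊤) : IsKRootSubgroupSet k (sz k ρ '' N) := by
  refine ⟨H.rootSet hg, ?_⟩
  rintro _ ⟨a, ha, rfl⟩ _ ⟨b, hb, rfl⟩ hr
  rcases H.pair a ha b hb with h | ⟨l, hl, h1, h2⟩ | ⟨h1, h2, h3⟩
  · exact absurd (H.commute ha hb h) (r1_commutator_ne_bot hr)
  · exact H.psl2 ha hb hl h1 h2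
  · exact absurd hr (rs_cc_not_r1 (H.rootSet hg) ⟨a, ha, rfl⟩ (H.cc ha hb h1 h2 h3))

theorem fadj {a b : E} (ha : a ∈ N) (hb : b ∈ N) {l : k} (hl : l ≠ 0) (h1 : a * b * a = l • a)
    (h2 : b * a * b = l • b) : FAdj (sz k ρ '' N) (sz k ρ a) (sz k ρ b) :=
  ⟨⟨a, ha, rfl⟩, ⟨b, hb, rfl⟩, psl2Pair_r1 (H.psl2 ha hb hl h1 h2)⟩

/-- restriction to the subgroup generated by the root subgroups -/
theorem restrict : SZ k (ρ.comp (⨆ A ∈ sz k ρ '' N, A : Subgroup G).subtype) N := by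
  refine ⟨H.inj.comp Subtype.val_injective, H.sq, H.ne, fun a ha c => ?_, fun a ha g => H.conj a ha g, H.smul,
    H.pair⟩
  obtain ⟨g, hg⟩ := H.ex a ha c
  exact ⟨⟨g, (le_iSup₂_of_le (f := fun A (_ : A ∈ sz k ρ '' N) => A) _ ⟨a, ha, rfl⟩ le_rfl)
    ((H.mem ha).2 ⟨c, hg⟩)⟩, hg⟩

theorem image_subgroupOf (K : Subgroup G) :
    (fun A : Subgroup G => A.subgroupOf K) '' (sz k ρ '' N) = sz k (ρ.comp K.subtype) '' N := by
  rw [Set.image_image]
  exact Set.image_congr fun a ha => sz_subgroupOf (H.sq a ha) K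

omit H in
theorem iSup_subgroupOf_eq_top (S : Set (Subgroup G)) {K : Subgroup G} (hK : (⨆ A ∈ S, A) = K) :
    (⨆ A ∈ (fun A : Subgroup G => A.subgroupOf K) '' S, A) = ⊤ := by
  apply Subgroup.map_injective (Subgroup.subtype_injective K)
  rw [← MonoidHom.range_eq_map, Subgroup.range_subtype, iSup_image, Subgroup.map_iSup]
  conv_rhs => rw [← hK]
  refine iSup_congr fun A => ?_
  rw [Subgroup.map_iSup]
  exact iSup_congr fun hA => Subgroup.map_subgroupOf_eq_of_le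
    (hK ▸ le_iSup₂_of_le (f := fun A (_ : A ∈ S) => A) A hA le_rfl)

theorem restrict_gen : (⨆ A ∈ sz k (ρ.comp (⨆ A ∈ sz k ρ '' N, A : Subgroup G).subtype) '' N, A) = ⊤ := by
  rw [← H.image_subgroupOf]
  exact iSup_subgroupOf_eq_top _ rfl

end SZ

theorem odd_orderOf_xu_xl [Finite k] [CharP k 2] {s t : k} (hs : s ≠ 0) (ht : t ≠ 0) :
    Odd (orderOf (xu s * xl t)) := by
  rw [← Nat.not_even_iff_odd]
  rintro ⟨m, hm⟩
  have h2 : ∀ r : k, r + r = 0 := CharTwo.add_self_eq_zero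
  have ha : xu s * xu s = 1 := by rw [← xu_add, h2, xu_zero]
  have hb : xl t * xl t = 1 := by rw [← xl_add, h2, xl_zero]
  set z := (xu s * xl t) ^ m with hz
  have hzz : z * z = 1 := by rw [hz, ← pow_add, ← hm, pow_orderOf_eq_one]
  have e1 : xu s * z * (xu s)⁻¹ = z := by
    rw [hz, ← conj_pow, show xu s * (xu s * xl t) * (xu s)⁻¹ = (xu s * xl t)⁻¹ by
      rw [← mul_assoc, ha, one_mul, _root_.mul_inv_rev, inv_eq_of_mul_eq_one_right hb], inv_pow]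
    exact inv_eq_of_mul_eq_one_right hzz
  rw [mul_inv_eq_iff_eq_mul] at e1
  have e2 : xl t * z = z * xl t := by
    have : Commute (xu s * xl t) z := (Commute.refl _).pow_right m
    have e := this.eq
    rw [mul_assoc, ← mul_assoc z, ← e1, mul_assoc] at e
    exact mul_left_cancel e
  have f1 := congrArg (fun g : SL(2, k) => g 0 0) e1
  have f2 := congrArg (fun g : SL(2, k) => g 0 1) e1
  have f3 := congrArg (fun g : SL(2, k) => g 0 0) e2
  simp [sl_mul_apply, hs, ht] at f1 f2 f3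
  have : z = 1 := by
    rcases sl_eq_of_offdiag f3 f1 (mul_left_cancel₀ hs (by linear_combination -f2)) with h | h
    · exact h
    · rw [h]; exact sl_ext (by simp [CharTwo.neg_eq]) (by simp) (by simp) (by simp [CharTwo.neg_eq])
  have hpos := orderOf_pos (xu s * xl t)
  exact pow_ne_one_of_lt_orderOf (by omega) (by omega) this

theorem SZ.rootInv {N : Set E} (H : SZ k ρ N) [Finite k] [CharP k 2] (hg : (⨆ A ∈ sz k ρ '' N, A) = ⊤) :
    IsRootInvolutionSet {g | ∃ a ∈ N, ρ g = 1 + a} ∧ (Nat.card k = 2 → ∀ x ∈ {g | ∃ a ∈ N, ρ g = 1 + a},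
      ∀ y ∈ {g | ∃ a ∈ N, ρ g = 1 + a}, Odd (orderOf (x * y)) → orderOf (x * y) = 1 ∨ orderOf (x * y) = 3) := by
  have h2 : ∀ x ∈ {g | ∃ a ∈ N, ρ g = 1 + a}, x * x = 1 ∧ x ≠ 1 := by
    rintro x ⟨a, ha, hx⟩
    rw [← one_smul k a] at hx
    exact ⟨(H.eq_one_iff ha (sz_mul (H.sq a ha) hx hx)).2 (CharTwo.add_self_eq_zero 1),
      fun e => one_ne_zero ((H.eq_one_iff ha hx).1 e)⟩
  have key : ∀ x ∈ {g | ∃ a ∈ N, ρ g = 1 + a}, ∀ y ∈ {g | ∃ a ∈ N, ρ g = 1 + a}, x * y = y * x ∨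
      (∃ l : k, l ≠ 0 ∧ orderOf (x * y) = orderOf (xu 1 * xl l)) ∨
      (orderOf (x * y) = 4 ∧ (x * y) ^ 2 ∈ {g | ∃ a ∈ N, ρ g = 1 + a}) := by
    rintro x ⟨a, ha, hx⟩ y ⟨b, hb, hy⟩
    have x2 := h2 x ⟨a, ha, hx⟩
    have y2 := h2 y ⟨b, hb, hy⟩
    rw [← one_smul k a] at hx
    rw [← one_smul k b] at hy
    rcases H.pair a ha b hb with h | ⟨l, hl, h1, h3⟩ | ⟨h1, h3, h4⟩
    · exact Or.inl (commutator_eq_bot_iff.1 (H.commute ha hb h) x ((H.mem ha).2 ⟨_, hx⟩) y ((H.mem hb).2 ⟨_, hy⟩))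
    · obtain ⟨φ, hi, hu, hl'⟩ := H.exists_hom ha (H.smul b hb _ (inv_ne_zero hl)) (by
        rw [mul_smul_comm, smul_mul_assoc, h1, smul_smul, inv_mul_cancel₀ hl, one_smul]) (by
        rw [mul_smul_comm, smul_mul_assoc, smul_mul_assoc, h3, smul_smul l⁻¹ l, inv_mul_cancel₀ hl, one_smul])
      refine Or.inr (Or.inl ⟨l, hl, ?_⟩)
      rw [← orderOf_injective φ hi, map_mul, H.inj (hx.trans (hu 1).symm), H.inj (hy.trans (by
        rw [hl' l, smul_smul, mul_inv_cancel₀ hl]) : ρ y = ρ (φ (xl l)))]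
    · have e : (x * y) ^ 2 ∈ {g | ∃ a ∈ N, ρ g = 1 + a} := ⟨_, h4, by
        have := rho_comm (H.sq a ha) (H.sq b hb) h1 h3 hx hy
        rwa [mul_one, one_smul, inv_eq_of_mul_eq_one_right x2.1, inv_eq_of_mul_eq_one_right y2.1,
          mul_assoc (x * y), ← pow_two] at this⟩
      refine Or.inr (Or.inr ⟨?_, e⟩)
      have := h2 _ e
      exact orderOf_eq_prime_pow (p := 2) (n := 1) (by simpa using this.2) (by
        rw [← this.1, ← pow_add]; norm_num)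
  refine ⟨⟨fun d hd => orderOf_eq_prime (by rw [pow_two, (h2 d hd).1]) (h2 d hd).2, ?_, ?_, fun x hx y hy => ?_⟩,
    fun hk x hx y hy ho => ?_⟩
  · rw [eq_top_iff, ← hg]
    refine iSup₂_le ?_
    rintro _ ⟨a, ha, rfl⟩ g hg
    obtain ⟨c, hc⟩ := (H.mem ha).1 hg
    by_cases c0 : c = 0
    · rw [(H.eq_one_iff ha hc).2 c0]; exact Subgroup.one_mem _
    · exact Subgroup.subset_closure ⟨_, H.smul a ha c c0, hc⟩
  · rintro x ⟨a, ha, hx⟩ g
    rw [← one_smul k a] at hx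
    exact ⟨_, H.conj a ha g, by rw [rho_conj hx, one_smul]⟩
  · rcases key x hx y hy with h | ⟨l, hl, h⟩ | h
    · exact Or.inl h
    · exact Or.inr (Or.inl (h ▸ odd_orderOf_xu_xl one_ne_zero hl))
    · exact Or.inr (Or.inr h)
  · rcases key x hx y hy with h | ⟨l, hl, h⟩ | h
    · left
      have : (x * y) ^ 2 = 1 := by
        rw [pow_two, mul_assoc, ← mul_assoc y, ← h, mul_assoc, (h2 y hy).1, mul_one, (h2 x hx).1]
      rcases (Nat.dvd_prime Nat.prime_two).1 (orderOf_dvd_of_pow_eq_one this) with h | h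
      · exact h
      · rw [h] at ho; exact absurd ho (by decide)
    · obtain rfl : l = 1 := by
        by_contra h1
        obtain ⟨y, -, hy⟩ := (Nat.card_eq_two_iff' (0 : k)).1 hk
        exact h1 ((hy l hl).trans (hy 1 one_ne_zero).symm)
      rw [h]
      have : (xu (1 : k) * xl 1) ^ 3 = 1 := by
        have h2 : (2 : k) = 0 := CharTwo.two_eq_zero
        rw [pow_three]
        refine sl_ext ?_ ?_ ?_ ?_ <;> simp [sl_mul_apply] <;> grind
      exact (Nat.dvd_prime Nat.prime_three).1 (orderOf_dvd_of_pow_eq_one this)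
    · rw [h.1] at ho; exact absurd ho (by decide)

end H70
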