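/- Siegel transvection subgroups as root subgroups. -/
import Cfsg.Agent.H70.SqZ
import Cfsg.Agent.H56.Root
import Cfsg.Agent.H56.OrthMat
import Cfsg.Agent.H62.Tv

set_option autoImplicit false
open Cfsg QuadraticMap Module

namespace H70

open H56

variable {F V : Type*} [Field F] [AddCommGroup V] [Module F V] (Q : QuadraticForm F V)

/-- nilpotent part of a Siegel transvection -/
def sg (u v : V) : Module.End F V := (Q.polarBilin v).smulRight u - (Q.polarBilin u).smulRight v

theorem sg_apply (u v x : V) : sg Q u v x = polar Q v x • u - polar Q u x • v := rfl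

/-- a singular line -/
structure SL2V (u v : V) : Prop where
  li : LinearIndependent F ![u, v]
  qu : Q u = 0
  qv : Q v = 0
  uv : polar Q u v = 0

/-- nilpotent parts of the Siegel transvections -/
def oN : Set (Module.End F V) := {a | ∃ u v, SL2V Q u v ∧ a = sg Q u v}

variable {Q} {G : Type*} [Group G] {ρ : G →* Module.End F V}

theorem sg_smul (c : F) (u v : V) : sg Q u (c • v) = c • sg Q u v := by
  ext x; simp only [sg_apply, LinearMap.smul_apply, polar_smul_left, smul_eq_mul]; module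

theorem sg_swap (u v : V) : sg Q v u = (-1 : F) • sg Q u v := by
  ext x; simp only [sg_apply, LinearMap.smul_apply]; module

theorem sg_add_smul (c : F) (u v : V) : sg Q u (v + c • u) = sg Q u v := by
  ext x; simp only [sg_apply, polar_add_left, polar_smul_left, smul_eq_mul]; module

theorem sg_eq_zero {u v : V} (h : ¬ LinearIndependent F ![u, v]) : sg Q u v = 0 := by
  by_cases hu : u = 0
  · ext x; simp [sg_apply, hu]
  · have : ∃ c : F, v = c • u := by
      by_contra hn; push Not at hn; exact h (ind_of_ne hu hn)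
    obtain ⟨c, rfl⟩ := this
    ext x; simp [sg_apply, polar_smul_left, smul_smul, mul_comm]

theorem SL2V.swap {u v : V} (h : SL2V Q u v) : SL2V Q v u :=
  ⟨LinearIndependent.pair_symm_iff.1 h.li, h.qv, h.qu, by rw [polar_comm, h.uv]⟩

theorem SL2V.ne {u v : V} (h : SL2V Q u v) : u ≠ 0 := by simpa using h.li.ne_zero 0

theorem SL2V.smul {u v : V} (h : SL2V Q u v) {c : F} (hc : c ≠ 0) : SL2V Q u (c • v) :=
  ⟨ind_of_ne h.ne fun d e => ne_smul_of_ind h.li (c⁻¹ * d) (by rw [← smul_smul, ← e, inv_smul_smul₀ hc]), h.qu,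
    by rw [Q_smul, h.qv, mul_zero], by rw [polar_smul_right, h.uv, smul_zero]⟩

theorem SL2V.add_smul {u v : V} (h : SL2V Q u v) (c : F) : SL2V Q u (v + c • u) :=
  ⟨ind_of_ne h.ne fun d e => ne_smul_of_ind h.li (d - c) (by rw [sub_smul, ← e, add_sub_cancel_right]), h.qu,
    by rw [Q_add, Q_smul, h.qv, h.qu, polar_smul_right, h.swap.uv]; simp,
    by rw [polar_add_right, polar_smul_right, h.uv, H60.pself h.qu]; simp⟩

theorem sg_aba (p r u w : V) : sg Q p r * sg Q u w * sg Q p r =
    (polar Q p w * polar Q r u - polar Q p u * polar Q r w) • sg Q p r := by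
  ext x
  simp only [Module.End.mul_apply, sg_apply, LinearMap.smul_apply, polar_sub_right, polar_smul_right, smul_eq_mul,
    polar_comm Q w p, polar_comm Q u p, polar_comm Q w r, polar_comm Q u r]
  module

theorem exists_rank_one {a b c d : F} (h : b * c - a * d = 0) :
    ∃ α γ δ ε : F, a = α * δ ∧ b = α * ε ∧ c = γ * δ ∧ d = γ * ε := by
  by_cases ha : a = 0
  · by_cases hb : b = 0
    · exact ⟨0, 1, c, d, by simp [ha], by simp [hb], by simp, by simp⟩
    · exact ⟨1, d / b, a, b, by simp, by simp, by simpa [ha, hb] using h, by field_simp⟩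
  · exact ⟨1, c / a, a, b, by simp, by simp, by field_simp, by field_simp; linear_combination -h⟩

theorem oSZ [FiniteDimensional F V] (hQ : Q.polarBilin.Nondegenerate) (hi : Function.Injective ρ)
    (h1 : ∀ g, ∃ t : O Q, ρ g = t.lin) (h2 : ∀ t : O Q, ∃ g, ρ g = t.lin) : SZ F ρ (oN Q) := by
  refine ⟨hi, ?_, ?_, ?_, ?_, ?_, ?_⟩
  · rintro _ ⟨u, v, h, rfl⟩
    ext x
    simp [sg_apply, polar_sub_right, polar_smul_right, h.uv, h.swap.uv, H60.pself h.qu, H60.pself h.qv]
  · rintro _ ⟨u, v, h, rfl⟩ e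
    obtain ⟨x, e1, e2⟩ := exists_dual_pair hQ h.li 0 1
    exact h.ne (by simpa [sg_apply, e1, e2] using LinearMap.congr_fun e x)
  · rintro _ ⟨u, v, h, rfl⟩ c
    obtain ⟨g, hg⟩ := h2 (eich Q u (c • v))
    refine ⟨g, ?_⟩
    rw [hg, ← sg_smul]
    ext x
    rw [O.lin_apply, eich_apply h.qu (by rw [polar_smul_right, h.uv, smul_zero]), Q_smul, h.qv]
    simp [sg_apply, add_sub_assoc]
  · rintro _ ⟨u, v, h, rfl⟩ g
    obtain ⟨t, ht⟩ := h1 g
    have e : ∀ x, t (ρ g⁻¹ x) = x := fun x => by
      rw [← O.lin_apply, ← ht, ← Module.End.mul_apply, ← map_mul, mul_inv_cancel, map_one, Module.End.one_apply]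
    refine ⟨t u, t v, ⟨ind_map t h.li, by rw [O.map_Q, h.qu], by rw [O.map_Q, h.qv], by rw [O.map_polar, h.uv]⟩, ?_⟩
    ext x
    rw [Module.End.mul_apply, Module.End.mul_apply, ht, O.lin_apply, sg_apply, sg_apply, map_sub, map_smul, map_smul,
      ← O.map_polar t v, ← O.map_polar t u, e]
  · rintro _ ⟨u, v, h, rfl⟩ c hc
    exact ⟨u, _, h.smul hc, (sg_smul c u v).symm⟩
  · rintro _ ⟨p, r, h, rfl⟩ _ ⟨u, w, h', rfl⟩
    by_cases hd : polar Q p w * polar Q r u - polar Q p u * polar Q r w = 0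
    · obtain ⟨α, γ, δ, ε, e1, e2, e3, e4⟩ := exists_rank_one hd
      have e : sg Q p r * sg Q u w - sg Q u w * sg Q p r = sg Q (δ • w - ε • u) (α • r - γ • p) := by
        ext x
        simp only [Module.End.mul_apply, sg_apply, LinearMap.sub_apply, polar_sub_right, polar_smul_right, smul_eq_mul,
          polar_sub_left, polar_smul_left, polar_comm Q w p, polar_comm Q u p, polar_comm Q w r, polar_comm Q u r,
          e1, e2, e3, e4]
        module
      by_cases hl : LinearIndependent F ![δ • w - ε • u, α • r - γ • p]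
      · refine Or.inr (Or.inr ⟨by rw [sg_aba, hd, zero_smul], ?_, _, _, ⟨hl, ?_, ?_, ?_⟩, e⟩)
        · rw [sg_aba, polar_comm Q u r, polar_comm Q w p, polar_comm Q u p, polar_comm Q w r, mul_comm, hd,
            zero_smul]
        · simp [Q_sub, Q_smul, h'.qu, h'.qv, polar_smul_left, polar_smul_right, h'.swap.uv]
        · simp [Q_sub, Q_smul, h.qu, h.qv, polar_smul_left, polar_smul_right, h.swap.uv]
        · simp only [polar_sub_right, polar_smul_right, smul_eq_mul, polar_sub_left, polar_smul_left,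
            polar_comm Q w p, polar_comm Q u p, polar_comm Q w r, polar_comm Q u r, e1, e2, e3, e4]
          ring
      · left; rwa [sg_eq_zero hl, sub_eq_zero] at e
    · refine Or.inr (Or.inl ⟨_, hd, sg_aba _ _ _ _, ?_⟩)
      rw [sg_aba, polar_comm Q u r, polar_comm Q w p, polar_comm Q u p, polar_comm Q w r, mul_comm]

theorem o_closure_eq [FiniteDimensional F V] (hQ : Q.polarBilin.Nondegenerate) (h1 : ∀ g, ∃ t : O Q, ρ g = t.lin)
    {p r : V} (h : SL2V Q p r) :
    Subgroup.closure {g | ∀ v, polar Q v p = 0 → polar Q v r = 0 → ρ g v = v} = sz F ρ (sg Q p r) := by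
  unfold sz
  congr 1
  ext g
  constructor
  · intro hg
    obtain ⟨t, ht⟩ := h1 g
    have hL := isTL_span h.li h.qu h.qv h.uv
    have hp := left_mem_span_pair (F := F) p r
    have hr := right_mem_span_pair (F := F) p r
    obtain ⟨v, hv, e⟩ := hL.exists_eq_eich hQ hp h.ne (g := t) (mem_XG_of_fix hQ fun x hx => by
      have := (hL.mem_perp_iff hp hr h.li).1 hx
      rw [← O.lin_apply, ← ht]
      exact hg x (by rw [polar_comm, this.1]) (by rw [polar_comm, this.2]))
    obtain ⟨a, b, rfl⟩ := hL.exists_comb hp hr h.li hv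
    refine ⟨b, ?_⟩
    rw [ht, e, ← sg_smul, ← sg_add_smul a, add_comm (b • r)]
    ext x
    rw [O.lin_apply, eich_apply h.qu (hL.polar hp hv), hL.2 _ hv]
    simp [sg_apply, add_sub_assoc]
  · rintro ⟨c, hc⟩ v e1 e2
    rw [hc]; simp [sg_apply, polar_comm Q r, polar_comm Q p, e1, e2]

theorem exists_ts_ext [FiniteDimensional F V] {T : Submodule F V} (hT : ∀ x ∈ T, Q x = 0) {p : V} (hp : Q p = 0) :
    ∃ T' : Submodule F V, (∀ x ∈ T', Q x = 0) ∧ p ∈ T' ∧ finrank F T ≤ finrank F T' ∧
      ∀ x ∈ T, polar Q p x = 0 → x ∈ T' := by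
  by_cases h : p ∈ T
  · exact ⟨T, hT, h, le_rfl, fun x hx _ => hx⟩
  refine ⟨(T ⊓ LinearMap.ker (Q.polarBilin p)) ⊔ F ∙ p, fun x hx => ?_,
    Submodule.mem_sup_right (Submodule.mem_span_singleton_self p), ?_,
    fun x hx hx' => Submodule.mem_sup_left ⟨hx, hx'⟩⟩
  · obtain ⟨y, ⟨hy, hy'⟩, z, hz, rfl⟩ := Submodule.mem_sup.1 hx
    obtain ⟨c, rfl⟩ := Submodule.mem_span_singleton.1 hz
    rw [Q_add, Q_smul, hp, hT y hy, polar_smul_right, polar_comm, show polar Q p y = 0 from hy']; simp
  · refine (H62.finrank_le_finrank_inf_ker_add_one T (Q.polarBilin p)).trans (Nat.succ_le_of_lt ?_)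
    exact Submodule.finrank_lt_finrank_of_lt (lt_of_le_of_ne le_sup_left fun e => h
      ((e ▸ Submodule.mem_sup_right (Submodule.mem_span_singleton_self p) :
        p ∈ T ⊓ LinearMap.ker (Q.polarBilin p)).1))

theorem o_connected [FiniteDimensional F V] (hQ : Q.polarBilin.Nondegenerate) (H : SZ F ρ (oN Q))
    {T : Submodule F V} (hT : ∀ x ∈ T, Q x = 0) (h3 : 3 ≤ finrank F T) :
    IsConnectedFamily (FAdj (sz F ρ '' oN Q)) (sz F ρ '' oN Q) := by
  set R := Relation.ReflTransGen (FAdj (sz F ρ '' oN Q)) with hR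
  have adj : ∀ {p r u w : V}, SL2V Q p r → SL2V Q u w → polar Q p w * polar Q r u - polar Q p u * polar Q r w ≠ 0 →
      FAdj (sz F ρ '' oN Q) (sz F ρ (sg Q p r)) (sz F ρ (sg Q u w)) := by
    intro p r u w h h' hd
    refine H.fadj ⟨p, r, h, rfl⟩ ⟨u, w, h', rfl⟩ hd (sg_aba _ _ _ _) ?_
    rw [sg_aba, polar_comm Q u r, polar_comm Q w p, polar_comm Q u p, polar_comm Q w r, mul_comm]
  have same0 : ∀ {p r w : V}, SL2V Q p r → SL2V Q p w → polar Q r w = 0 →
      R (sz F ρ (sg Q p r)) (sz F ρ (sg Q p w)) := by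
    intro p r w h h' hrw
    obtain ⟨f, hf⟩ := exists_isHyp hQ h.ne h.qu
    have k := h.add_smul (-polar Q f r)
    have k' := h'.add_smul (-polar Q f w)
    rw [← sg_add_smul (-polar Q f r), ← sg_add_smul (-polar Q f w) p w]
    have hrw' : polar Q (r + -polar Q f r • p) (w + -polar Q f w • p) = 0 := by
      simp [polar_add_left, polar_add_right, polar_smul_left, polar_smul_right, hrw, h.swap.uv, h'.uv,
        H60.pself h.qu]
    have hfr : polar Q f (r + -polar Q f r • p) = 0 := by simp [polar_add_right, polar_smul_right, hf.fe]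
    have hfw : polar Q f (w + -polar Q f w • p) = 0 := by simp [polar_add_right, polar_smul_right, hf.fe]
    generalize r + -polar Q f r • p = r at *
    generalize w + -polar Q f w • p = w at *
    obtain ⟨u, u1, u2, u3, u4⟩ : ∃ u, polar Q p u = 0 ∧ polar Q f u = 0 ∧ polar Q u r ≠ 0 ∧ polar Q u w ≠ 0 := by
      obtain ⟨v1, a1, a2, a3⟩ := hf.exists_perp_polar_eq hQ k.swap.ne k.uv hfr 1
      obtain ⟨v2, b1, b2, b3⟩ := hf.exists_perp_polar_eq hQ k'.swap.ne k'.uv hfw 1
      by_cases c1 : polar Q v1 w = 0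
      · by_cases c2 : polar Q v2 r = 0
        · exact ⟨v1 + v2, by simp [polar_add_right, a1, b1], by simp [polar_add_right, a2, b2],
            by simp [polar_add_left, a3, c2], by simp [polar_add_left, b3, c1]⟩
        · exact ⟨v2, b1, b2, c2, by simp [b3]⟩
      · exact ⟨v1, a1, a2, by simp [a3], c1⟩
    set z := u - (Q u / polar Q u r) • r with hz
    have z1 : polar Q p z = 0 := by simp [hz, polar_sub_right, polar_smul_right, u1, k.uv]
    have z2 : polar Q r z = polar Q u r := by
      simp [hz, polar_sub_right, polar_smul_right, H60.pself k.qv, polar_comm Q r u]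
    have z3 : polar Q w z = polar Q u w := by
      simp [hz, polar_sub_right, polar_smul_right, polar_comm Q w r, hrw', polar_comm Q w u]
    have hl : SL2V Q f z := ⟨ind_of_ne hf.symm.ne_zero fun c e => u3 (by
        rw [← z2, e, polar_smul_right, polar_comm, hfr, smul_zero]), hf.qf,
      by rw [hz, Q_sub, Q_smul, k.qv, polar_smul_right, smul_eq_mul, div_mul_cancel₀ _ u3]; simp,
      by simp [hz, polar_sub_right, polar_smul_right, u2, hfr]⟩
    exact (Relation.ReflTransGen.single (adj k hl (by simpa [z1, z2, hf.ef] using u3))).tail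
      (fadj_symm (adj k' hl (by simpa [z1, z3, hf.ef] using u4)))
  have same : ∀ {p r w : V}, SL2V Q p r → SL2V Q p w → R (sz F ρ (sg Q p r)) (sz F ρ (sg Q p w)) := by
    intro p r w h h'
    obtain ⟨T1, a1, a2, a3, -⟩ := exists_ts_ext hT h.qu
    obtain ⟨T2, b1, b2, b3, b4⟩ := exists_ts_ext a1 h.qv
    have hp := b4 p a2 h.swap.uv
    obtain ⟨y, hy, hy1, hy2⟩ := H62.exists_mem_notMem_ker [Q.polarBilin w] (W := T2) (Z := F ∙ p) (by
      rw [finrank_span_singleton h.ne]; simp; omega)
    have pol : ∀ x ∈ T2, polar Q x y = 0 := fun x hx => by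
      have := b1 _ (T2.add_mem hx hy)
      rwa [Q_add, b1 x hx, b1 y hy, zero_add, zero_add] at this
    have k : SL2V Q p y := ⟨H62.linearIndependent_pair_of_notMem h.ne hy1, h.qu, b1 y hy, pol p hp⟩
    exact (same0 h k (pol r b2)).trans (same0 k h' (by rw [polar_comm]; exact hy2 _ (List.mem_singleton_self _)))
  have sw : ∀ u v : V, sz F ρ (sg Q u v) = sz F ρ (sg Q v u) := fun u v => by
    rw [sg_swap, sz_smul _ (by simp)]
  have gen : ∀ {p r u w : V}, SL2V Q p r → SL2V Q u w → polar Q p u = 0 →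
      R (sz F ρ (sg Q p r)) (sz F ρ (sg Q u w)) := by
    intro p r u w h h' hpu
    by_cases hl : ∃ c : F, u = c • p
    · obtain ⟨c, rfl⟩ := hl
      have hc : c ≠ 0 := by rintro rfl; exact h'.ne (zero_smul _ _)
      have := (h'.swap.smul (inv_ne_zero hc)).swap
      rw [inv_smul_smul₀ hc] at this
      rw [sw (c • p), sg_smul, sz_smul _ hc, sw w]
      exact same h this
    · push Not at hl
      have k : SL2V Q p u := ⟨ind_of_ne h.ne hl, h.qu, h'.qu, hpu⟩
      exact (same h k).trans (sw u p ▸ same k.swap h')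
  rintro _ ⟨_, ⟨p, r, h, rfl⟩, rfl⟩ _ ⟨_, ⟨u, w, h', rfl⟩, rfl⟩
  by_cases hpu : polar Q p u = 0
  · exact gen h h' hpu
  · rw [← sg_add_smul (-polar Q r u / polar Q p u), sw]
    refine gen (h.add_smul _).swap h' ?_
    rw [polar_add_left, polar_smul_left, smul_eq_mul, div_mul_cancel₀ _ hpu, add_neg_cancel]

end H70
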