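/- Transvection subgroups of the special linear group. -/
import Cfsg.Agent.H70.SqZ
import Cfsg.Agent.H57.Transv
import Cfsg.Agent.H57.SLGen

set_option autoImplicit false
open Cfsg Matrix

namespace H70

variable {ι k : Type*} [Fintype ι] [DecidableEq ι] [Field k]

/-- square zero matrices of rank one -/
def slN (ι k : Type*) [Fintype ι] [Field k] : Set (Matrix ι ι k) :=
  {a | ∃ v φ : ι → k, v ≠ 0 ∧ φ ≠ 0 ∧ φ ⬝ᵥ v = 0 ∧ a = vecMulVec v φ}

omit [DecidableEq ι] in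
theorem vmv_mul (v φ w ψ : ι → k) : vecMulVec v φ * vecMulVec w ψ = (φ ⬝ᵥ w) • vecMulVec v ψ := by
  rw [vecMulVec_mul_vecMulVec, vecMulVec_smul]

omit [DecidableEq ι] in
theorem smul_mem_slN {a : Matrix ι ι k} (ha : a ∈ slN ι k) {c : k} (hc : c ≠ 0) : c • a ∈ slN ι k := by
  obtain ⟨v, φ, hv, hφ, h, rfl⟩ := ha
  exact ⟨c • v, φ, smul_ne_zero hc hv, hφ, by rw [dotProduct_smul, h, smul_zero], by rw [smul_vecMulVec]⟩

theorem sl_conj_vmv (g : SpecialLinearGroup ι k) (v φ : ι → k) :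
    (g : Matrix ι ι k) * vecMulVec v φ * ((g⁻¹ : SpecialLinearGroup ι k) : Matrix ι ι k) =
      vecMulVec ((g : Matrix ι ι k) *ᵥ v) (φ ᵥ* ((g⁻¹ : SpecialLinearGroup ι k) : Matrix ι ι k)) := by
  rw [mul_vecMulVec, vecMulVec_mul]

theorem slSZ : SZ k (SpecialLinearGroup.coeMonoidHom : SpecialLinearGroup ι k →* Matrix ι ι k) (slN ι k) := by
  refine ⟨Subtype.val_injective, ?_, ?_, ?_, ?_, fun a ha c hc => smul_mem_slN ha hc, ?_⟩
  · rintro _ ⟨v, φ, -, -, h, rfl⟩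
    rw [vmv_mul, h, zero_smul]
  · rintro _ ⟨v, φ, hv, hφ, -, rfl⟩
    exact vecMulVec_ne_zero hv hφ
  · rintro _ ⟨v, φ, -, -, h, rfl⟩ c
    exact ⟨H57.tv (c • v) φ (by rw [dotProduct_smul, h, smul_zero]), by rw [← smul_vecMulVec]; rfl⟩
  · rintro _ ⟨v, φ, hv, hφ, h, rfl⟩ g
    refine ⟨_, _, fun e => hv ?_, fun e => hφ ?_, (H57.vecMul_inv_dot_mulVec (SpecialLinearGroup.toGL g) v φ).trans h,
      sl_conj_vmv g v φ⟩
    · have := congrArg (((g⁻¹ : SpecialLinearGroup ι k) : Matrix ι ι k) *ᵥ ·) e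
      simpa only [mulVec_mulVec, SpecialLinearGroup.coe_GL_coe_matrix, H57.sl_inv_mul_coe, one_mulVec,
        mulVec_zero] using this
    · have : (φ ᵥ* ((g⁻¹ : SpecialLinearGroup ι k) : Matrix ι ι k)) ᵥ* (g : Matrix ι ι k) = 0 :=
        (congrArg (· ᵥ* (g : Matrix ι ι k)) e).trans (zero_vecMul _)
      rwa [vecMul_vecMul, H57.sl_inv_mul_coe, vecMul_one] at this
  · rintro _ ⟨v, φ, hv, hφ, h, rfl⟩ _ ⟨w, ψ, hw, hψ, h', rfl⟩
    simp only [vmv_mul, smul_mul_assoc, smul_smul]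
    by_cases h1 : φ ⬝ᵥ w = 0 <;> by_cases h2 : ψ ⬝ᵥ v = 0
    · left; simp [h1, h2]
    · right; right
      refine ⟨by simp [h1], by simp [h1], ?_⟩
      rw [h1, zero_smul, zero_sub, ← neg_smul]
      exact smul_mem_slN ⟨w, φ, hw, hφ, h1, rfl⟩ (neg_ne_zero.2 h2)
    · right; right
      refine ⟨by simp [h2], by simp [h2], ?_⟩
      rw [h2, zero_smul, sub_zero]
      exact smul_mem_slN ⟨v, ψ, hv, hψ, h2, rfl⟩ h1
    · right; left
      exact ⟨_, mul_ne_zero h1 h2, rfl, by rw [mul_comm]⟩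

theorem single_mem_slN {i j : ι} (hij : i ≠ j) : (single i j 1 : Matrix ι ι k) ∈ slN ι k :=
  ⟨Pi.single i 1, Pi.single j 1, by simp, by simp, by simp [hij.symm], H57.single_eq_vecMulVec i j 1⟩

theorem slN_conj {i j : ι} (hij : i ≠ j) {a : Matrix ι ι k} (ha : a ∈ slN ι k) :
    ∃ (g : SpecialLinearGroup ι k) (c : k), c ≠ 0 ∧
      a = (g : Matrix ι ι k) * single i j c * ((g⁻¹ : SpecialLinearGroup ι k) : Matrix ι ι k) := by
  obtain ⟨v, φ, hv, hφ, h, rfl⟩ := ha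
  obtain ⟨g, c, hc, h1, h2⟩ := H57.exists_sl_flag hv hφ h hij
  refine ⟨g, c, hc, ?_⟩
  rw [H57.single_eq_vecMulVec, sl_conj_vmv, h1, ← h2, vecMul_vecMul, H57.sl_mul_inv_coe, vecMul_one]

theorem sl_gen : (⨆ A ∈ sz k (SpecialLinearGroup.coeMonoidHom : SpecialLinearGroup ι k →* Matrix ι ι k) '' slN ι k,
    A) = ⊤ := by
  refine H57.sl_eq_top_of_transvections _ fun i j hij c => ?_
  refine Subgroup.mem_iSup_of_mem _ (Subgroup.mem_iSup_of_mem ⟨_, single_mem_slN hij, rfl⟩ ?_)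
  exact (slSZ.mem (single_mem_slN hij)).2 ⟨c, by rw [smul_single, smul_eq_mul, mul_one]; rfl⟩

theorem sl_class_eq {i j : ι} (hij : i ≠ j) : {A : Subgroup (SpecialLinearGroup ι k) |
    ∃ g : SpecialLinearGroup ι k, A = conjBy (Subgroup.closure {t : SpecialLinearGroup ι k |
      ∃ c : k, (t : Matrix ι ι k) = transvection i j c}) g} =
    sz k (SpecialLinearGroup.coeMonoidHom : SpecialLinearGroup ι k →* Matrix ι ι k) '' slN ι k := by
  have e : Subgroup.closure {t : SpecialLinearGroup ι k | ∃ c : k, (t : Matrix ι ι k) = transvection i j c} =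
      sz k (SpecialLinearGroup.coeMonoidHom : SpecialLinearGroup ι k →* Matrix ι ι k) (single i j 1) := by
    unfold sz
    simp only [smul_single, smul_eq_mul, mul_one]; rfl
  rw [e]
  ext A
  constructor
  · rintro ⟨g, rfl⟩
    exact ⟨_, slSZ.conj _ (single_mem_slN hij) g, (sz_conj (slSZ.sq _ (single_mem_slN hij)) g).symm⟩
  · rintro ⟨a, ha, rfl⟩
    obtain ⟨g, c, hc, rfl⟩ := slN_conj hij ha
    refine ⟨g, ?_⟩
    rw [sz_conj (slSZ.sq _ (single_mem_slN hij)), ← sz_smul (_ * single i j 1 * _) hc, ← smul_mul_assoc,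
      ← mul_smul_comm, smul_single, smul_eq_mul, mul_one]; rfl

theorem sl_inv_eq {i j : ι} (hij : i ≠ j) : {t : SpecialLinearGroup ι k | ∃ c : k, c ≠ 0 ∧
    ∃ g : SpecialLinearGroup ι k, ((g⁻¹ * t * g : SpecialLinearGroup ι k) : Matrix ι ι k) = transvection i j c} =
    {t | ∃ a ∈ slN ι k, (SpecialLinearGroup.coeMonoidHom : SpecialLinearGroup ι k →* Matrix ι ι k) t = 1 + a} := by
  ext t
  constructor
  · rintro ⟨c, hc, g, h⟩
    refine ⟨_, slSZ.smul _ (slSZ.conj _ (single_mem_slN hij) g) c hc, ?_⟩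
    rw [← rho_conj (x := g⁻¹ * t * g) (by rw [smul_single, smul_eq_mul, mul_one]; exact h)]
    congr 1; group
  · rintro ⟨a, ha, h⟩
    obtain ⟨g, c, hc, rfl⟩ := slN_conj hij ha
    refine ⟨c, hc, g, ?_⟩
    rw [Matrix.SpecialLinearGroup.coe_mul, Matrix.SpecialLinearGroup.coe_mul, show (t : Matrix ι ι k) = _ from h, mul_add,
      add_mul, mul_one, H57.sl_inv_mul_coe, ← mul_assoc, ← mul_assoc, H57.sl_inv_mul_coe, one_mul, mul_assoc,
      H57.sl_inv_mul_coe, mul_one]; rfl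

end H70
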