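/- Unitary transvection subgroups as root subgroups. -/
import Cfsg.Agent.H70.SqZ
import Cfsg.Agent.H59.Axis
import Cfsg.Agent.H59.Std

set_option autoImplicit false
open Cfsg

namespace H70

open H59

variable {F V : Type*} [Field F] [AddCommGroup V] [Module F V] {σ : F →+* F} (B : V →ₛₗ[σ] V →ₗ[F] F)

/-- the nilpotent part of a unitary transvection -/
def ut (p : V) (c : F) : Module.End F V := (c • B p).smulRight p

theorem ut_apply (p : V) (c : F) (x : V) : ut B p c x = (c * B p x) • p := rfl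

/-- nilpotent parts of the unitary transvections -/
def suN : Set (Module.End F V) := {a | ∃ p c, p ≠ 0 ∧ B p p = 0 ∧ c ≠ 0 ∧ c + σ c = 0 ∧ a = ut B p c}

variable {B} {L G : Type*} [Field L] [Algebra L F] [Module L V] [IsScalarTower L F V] [Group G]
  {ρ : G →* Module.End F V}

theorem smul_ut (l : L) (p : V) (c : F) : l • ut B p c = ut B p (algebraMap L F l * c) := by
  ext x
  rw [LinearMap.smul_apply, ut_apply, ut_apply, ← algebraMap_smul F l, smul_smul, mul_assoc]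

theorem ut_aba (p r : V) (c d : F) : ut B p c * ut B r d * ut B p c = ut B p (c * d * B r p * B p r * c) := by
  ext x
  simp only [Module.End.mul_apply, ut_apply, map_smul, smul_smul]
  congr 1; ring

theorem su_pair (h : IsHerm B) (hL : ∀ x, σ x = x ↔ x ∈ (algebraMap L F).range) {p r : V} {c d : F}
    (hc : c ≠ 0) (hc' : c + σ c = 0) (hd : d ≠ 0) (hd' : d + σ d = 0) (hpr : B p r ≠ 0) :
    ∃ l : L, l ≠ 0 ∧ ut B p c * ut B r d * ut B p c = l • ut B p c ∧
      ut B r d * ut B p c * ut B r d = l • ut B r d := by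
  obtain ⟨l, hl⟩ := (hL (c * d * B r p * B p r)).1 (by
    rw [map_mul, map_mul, map_mul, h.symm, h.symm, eq_neg_of_add_eq_zero_right hc',
      eq_neg_of_add_eq_zero_right hd']; ring)
  refine ⟨l, ?_, by rw [ut_aba, smul_ut, hl], by rw [ut_aba, smul_ut, hl]; congr 1; ring⟩
  rintro rfl
  exact mul_ne_zero (mul_ne_zero (mul_ne_zero hc hd) fun e => hpr (h.eq_zero_comm.1 e)) hpr (by rw [← hl, map_zero])

theorem suSZ [FiniteDimensional F V] (h : IsHerm B) (hL : ∀ x, σ x = x ↔ x ∈ (algebraMap L F).range)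
    (hi : Function.Injective ρ) (h1 : ∀ g x y, B (ρ g x) (ρ g y) = B x y)
    (h2 : ∀ t ∈ sisom B, ∃ g, ρ g = (t : V →ₗ[F] V)) : SZ L ρ (suN B) := by
  have hfix : ∀ l : L, σ (algebraMap L F l) = algebraMap L F l := fun l => (hL _).2 ⟨l, rfl⟩
  refine ⟨hi, ?_, ?_, ?_, ?_, ?_, ?_⟩
  · rintro _ ⟨p, c, -, hp, -, -, rfl⟩
    ext x; simp [ut_apply, hp]
  · rintro _ ⟨p, c, hp, -, hc, -, rfl⟩ e
    refine hp (h.nondeg p fun y => ?_)
    simpa [ut_apply, hp, hc] using LinearMap.congr_fun e y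
  · rintro _ ⟨p, c, -, hp, -, hc, rfl⟩ l
    obtain ⟨t, ht, e⟩ := h.exists_transv hp (c := algebraMap L F l * c) (by
      rw [map_mul, hfix, ← mul_add, hc, mul_zero])
    obtain ⟨g, hg⟩ := h2 t (axisGrp_le_sisom hp ht)
    exact ⟨g, by rw [hg, smul_ut]; ext x; exact e x⟩
  · rintro _ ⟨p, c, hp, hp', hc, hc', rfl⟩ g
    have e : ∀ x, ρ g (ρ g⁻¹ x) = x := fun x => by
      rw [← Module.End.mul_apply, ← map_mul, mul_inv_cancel, map_one, Module.End.one_apply]
    refine ⟨ρ g p, c, fun e' => hp (h.nondeg p fun y => by rw [← h1 g, e', map_zero, LinearMap.zero_apply]),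
      by rw [h1, hp'], hc, hc', ?_⟩
    ext x
    rw [Module.End.mul_apply, Module.End.mul_apply, ut_apply, ut_apply, map_smul, ← h1 g, e]
  · rintro _ ⟨p, c, hp, hp', hc, hc', rfl⟩ l hl
    exact ⟨p, _, hp, hp', mul_ne_zero ((map_ne_zero _).2 hl) hc, by rw [map_mul, hfix, ← mul_add, hc', mul_zero],
      smul_ut l p c⟩
  · rintro _ ⟨p, c, -, -, hc, hc', rfl⟩ _ ⟨r, d, -, -, hd, hd', rfl⟩
    by_cases hpr : B p r = 0
    · left
      ext x; simp [ut_apply, hpr, h.eq_zero_comm.1 hpr]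
    · exact Or.inr (Or.inl (su_pair h hL hc hc' hd hd' hpr))

theorem su_sz_eq (hL : ∀ x, σ x = x ↔ x ∈ (algebraMap L F).range) (p : V) {c d : F} (hc : c ≠ 0)
    (hc' : c + σ c = 0) (hd : d ≠ 0) (hd' : d + σ d = 0) : sz L ρ (ut B p c) = sz L ρ (ut B p d) := by
  obtain ⟨l, hl⟩ := (hL (d / c)).1 (by
    rw [map_div₀, eq_neg_of_add_eq_zero_right hc', eq_neg_of_add_eq_zero_right hd', neg_div_neg_eq])
  rw [← sz_smul (ut B p c) (c := l) (by rintro rfl; exact div_ne_zero hd hc (by rw [← hl, map_zero])), smul_ut, hl,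
    div_mul_cancel₀ _ hc]

theorem su_closure_eq (h : IsHerm B) (hL : ∀ x, σ x = x ↔ x ∈ (algebraMap L F).range)
    (h1 : ∀ g x y, B (ρ g x) (ρ g y) = B x y) {p : V} (hp : p ≠ 0) (hp' : B p p = 0) {c : F} (hc : c ≠ 0)
    (hc' : c + σ c = 0) : Subgroup.closure {g | (∀ v, ∃ e : F, ρ g v = v + e • p) ∧ ∀ v, B p v = 0 → ρ g v = v} =
      sz L ρ (ut B p c) := by
  unfold sz
  congr 1
  ext g
  constructor
  · rintro ⟨g1, g2⟩
    obtain ⟨u, hu⟩ : ∃ u, B p u ≠ 0 := by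
      by_contra hn; push Not at hn; exact hp (h.nondeg p hn)
    obtain ⟨f, hf, hff, -⟩ := h.exists_isotropic_partner hp' hu
    obtain ⟨e, he⟩ := g1 f
    have hx : ∀ x, ρ g x = x + (e * B p x) • p := fun x => by
      have := g2 (x - B p x • f) (by simp [hf])
      rw [map_sub, map_smul, he, sub_eq_iff_eq_add] at this
      rw [this, smul_add, smul_smul, mul_comm]; abel
    have hfp : B f p = 1 := by rw [← h.symm, hf, map_one]
    have he' : e + σ e = 0 := by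
      have := h1 g f f
      rw [he] at this
      simpa [hff, hf, hfp, hp', LinearMap.map_smulₛₗ, add_comm] using this
    obtain ⟨l, hl⟩ := (hL (e / c)).1 (by
      rw [map_div₀, eq_neg_of_add_eq_zero_right hc', eq_neg_of_add_eq_zero_right he', neg_div_neg_eq])
    refine ⟨l, ?_⟩
    rw [smul_ut, hl, div_mul_cancel₀ _ hc]
    ext x; exact hx x
  · rintro ⟨l, hl⟩
    rw [smul_ut] at hl
    exact ⟨fun v => ⟨_, by rw [hl]; rfl⟩, fun v hv => by rw [hl]; simp [ut_apply, hv]⟩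

theorem su_connected (h : IsHerm B) (hL : ∀ x, σ x = x ↔ x ∈ (algebraMap L F).range) (H : SZ L ρ (suN B)) :
    IsConnectedFamily (FAdj (sz L ρ '' suN B)) (sz L ρ '' suN B) := by
  rintro _ ⟨_, ⟨p, c, hp, hp', hc, hc', rfl⟩, rfl⟩ _ ⟨_, ⟨r, d, hr, hr', hd, hd', rfl⟩, rfl⟩
  have adj : ∀ {p r : V} {c d : F}, B p p = 0 → B r r = 0 → c ≠ 0 → c + σ c = 0 → d ≠ 0 → d + σ d = 0 → B p r ≠ 0 →
      FAdj (sz L ρ '' suN B) (sz L ρ (ut B p c)) (sz L ρ (ut B r d)) := by
    intro p r c d hp hr hc hc' hd hd' hpr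
    obtain ⟨l, hl, e1, e2⟩ := su_pair h hL hc hc' hd hd' hpr
    exact H.fadj ⟨p, c, by rintro rfl; simp at hpr, hp, hc, hc', rfl⟩ ⟨r, d, by rintro rfl; simp at hpr, hr, hd, hd', rfl⟩
      hl e1 e2
  by_cases hpr : B p r = 0
  · obtain ⟨u, hu1, hu2⟩ : ∃ u, B p u ≠ 0 ∧ B r u ≠ 0 := by
      obtain ⟨u, hu⟩ : ∃ u, B p u ≠ 0 := by
        by_contra hn; push Not at hn; exact hp (h.nondeg p hn)
      obtain ⟨v, hv⟩ : ∃ u, B r u ≠ 0 := by
        by_contra hn; push Not at hn; exact hr (h.nondeg r hn)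
      by_cases h1 : B r u = 0
      · by_cases h2 : B p v = 0
        · exact ⟨u + v, by simp [hu, h2], by simp [hv, h1]⟩
        · exact ⟨v, h2, hv⟩
      · exact ⟨u, hu, h1⟩
    obtain ⟨f, hf, hff, a, b, e⟩ := h.exists_isotropic_partner hp' hu1
    have hb : b ≠ 0 := by rintro rfl; rw [e] at hf; simp [hp'] at hf
    refine (Relation.ReflTransGen.single (adj hp' hff hc hc' hc hc' (by rw [hf]; exact one_ne_zero))).tail
      (adj hff hr' hc hc' hd hd' fun e' => ?_)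
    have := h.eq_zero_comm.1 e'
    rw [e] at this
    simp [h.eq_zero_comm.1 hpr, hb, hu2] at this
  · exact Relation.ReflTransGen.single (adj hp' hr' hc hc' hd hd' hpr)

theorem su_degenerate (h : IsHerm B) (hL : ∀ x, σ x = x ↔ x ∈ (algebraMap L F).range) (H : SZ L ρ (suN B))
    (hg : (⨆ A ∈ sz L ρ '' suN B, A) = ⊤) : IsDegenerateRootSet (sz L ρ '' suN B) := by
  rintro _ ⟨a, ha, rfl⟩ _ ⟨b, hb, rfl⟩ hcc
  obtain ⟨p, c, hp, hp', hc, hc', e1⟩ := id ha
  obtain ⟨r, d, hr, hr', hd, hd', e2⟩ := id hb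
  by_cases hpr : B p r = 0
  · refine rs_cc_ne_bot (H.rootSet hg) hcc (H.commute ha hb ?_)
    rw [e1, e2]
    ext x; simp [ut_apply, hpr, h.eq_zero_comm.1 hpr]
  · obtain ⟨l, hl, f1, f2⟩ := su_pair h hL hc hc' hd hd' hpr
    rw [← e1, ← e2] at f1 f2
    exact rs_cc_not_r1 (H.rootSet hg) ⟨a, ha, rfl⟩ hcc (H.fadj ha hb hl f1 f2).2.2

theorem exists_fixed_field [Fintype F] {q : ℕ} (hF : Fintype.card F = q ^ 2) :
    ∃ (L : Type) (_ : Field L) (_ : Fintype L) (φ : L →+* F), Fintype.card L = q ∧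
      ∀ x, frob hF x = x ↔ x ∈ φ.range := by
  classical
  let S := (frob hF).eqLocusField (RingHom.id F)
  let e := (Fintype.equivFin S).symm
  let _ := e.field
  refine ⟨Fin (Fintype.card S), inferInstance, inferInstance, S.subtype.comp e.ringEquiv.toRingHom, ?_,
    fun t => ⟨fun ht => ⟨e.symm ⟨t, ht⟩, congrArg Subtype.val (e.apply_symm_apply _)⟩, ?_⟩⟩
  · rw [Fintype.card_fin, ← Nat.card_eq_fintype_card, ← card_fixed hF]; rfl
  · rintro ⟨s, rfl⟩
    exact (e s).2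

end H70
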