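/- Triangle configurations of rank one pairs: `A ⊥ C`, both opposite to `D`. -/
import Cfsg.Agent.H70.SpR1
import Cfsg.Agent.H70.Root6

set_option autoImplicit false
open Cfsg

namespace H70

variable {G : Type*} [Group G] {A B C D E : Subgroup G}

theorem special_of_ptn_inv (h : IsRankOnePair A B) (hi : ∀ a b, Ptn A B a b → Ptn A B a⁻¹ b⁻¹) :
    IsSpecialRankOnePair A B := by
  refine ⟨h, fun a ha a1 b hb b1 e => ?_⟩
  have p : Ptn A B a b := ⟨ha, a1, hb, b1, e⟩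
  have q := hi a b p
  have s1 : rc A (b⁻¹ * a * b⁻¹) = B := by
    rw [mul_assoc, ← rc_rc, q.e, rc_rc, inv_mul_cancel_left, rc_of_mem q.hb]
  have s2 : rc B (b⁻¹ * a * b⁻¹) = A := by
    rw [mul_assoc, rc_mul_left q.hb, ← rc_rc, ← p.e, rc_rc, mul_inv_cancel, rc_one]
  have m : (b⁻¹ * a * b⁻¹)⁻¹ * b⁻¹ * (b⁻¹ * a * b⁻¹) ∈ A := s2 ▸ mem_rc.2 (by simpa [mul_assoc] using hb)
  have e1 : b⁻¹ * a * b⁻¹ = a * (b⁻¹ * ((b⁻¹ * a * b⁻¹)⁻¹ * b⁻¹ * (b⁻¹ * a * b⁻¹))) := by group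
  rw [e1, rc_mul_left ha, ← rc_rc, rc_eq_iff, q.e] at s1
  have := inv_inj.1 (r1_rc_inj h q.ha (A.inv_mem m) s1)
  rw [← this] at e1
  calc b⁻¹ * a * b = a⁻¹ * (a * (b⁻¹ * a)) * b := by group
    _ = _ := by rw [← e1]; group

theorem rc_mem_unip (hC : C ∈ unipotentSubgroups A B) {x : G} (hx : x ∈ A ⊔ B) :
    rc C x ∈ unipotentSubgroups A B := conj_mem_unip hC (Subgroup.inv_mem _ hx)

theorem rc_commutator (A B : Subgroup G) (g : G) : rc ⁅A, B⁆ g = ⁅rc A g, rc B g⁆ := conjBy_commutator _ _ _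

theorem rc_bot (g : G) : rc (⊥ : Subgroup G) g = ⊥ := conjBy_bot _

theorem rc_inj {g : G} : rc A g = rc B g ↔ A = B := conjBy_inj

theorem rc_comm (h : ⁅A, B⁆ = ⊥) (g : G) : ⁅rc A g, rc B g⁆ = ⊥ := by rw [← rc_commutator, h, rc_bot]

theorem r1_rc (h : IsRankOnePair A B) (g : G) : IsRankOnePair (rc A g) (rc B g) := r1_conj h _

theorem rc_of_comm {g : G} (h : ∀ a ∈ A, g * a = a * g) : rc A g = A := by
  ext x
  rw [mem_rc]
  constructor
  · intro hx
    have := h _ hx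
    rwa [show x = g * x * g⁻¹ by
      have e : g * x = g * (g * x * g⁻¹) := by rw [this]; group
      exact mul_left_cancel e]
  · intro hx
    rwa [h x hx, mul_inv_cancel_right]

theorem Ptn.conj {a b : G} (h : Ptn A B a b) (g : G) : Ptn (rc A g) (rc B g) (g⁻¹ * a * g) (g⁻¹ * b * g) := by
  refine ⟨mem_rc.2 (by simpa [mul_assoc] using h.ha), by simpa [mul_assoc] using fun e => h.a1 (by
    rw [inv_mul_eq_one] at e; simpa using e), mem_rc.2 (by simpa [mul_assoc] using h.hb),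
    by simpa [mul_assoc] using fun e => h.b1 (by rw [inv_mul_eq_one] at e; simpa using e), ?_⟩
  rw [rc_rc, rc_rc, show g * (g⁻¹ * b * g) = b * g by group, show g * (g⁻¹ * a * g) = a * g by group,
    ← rc_rc, ← rc_rc, h.e]

/-- triangle -/
structure Tri (A D C : Subgroup G) : Prop where
  r1 : IsRankOnePair A D
  r2 : IsRankOnePair C D
  ne : A ≠ C
  cm : ⁅A, C⁆ = ⊥

theorem Tri.symm (h : Tri A D C) : Tri C D A := ⟨h.r2, h.r1, h.ne.symm, by rw [Subgroup.commutator_comm, h.cm]⟩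

theorem Tri.comm (h : Tri A D C) {a c : G} (ha : a ∈ A) (hc : c ∈ C) : a * c = c * a :=
  commutator_eq_bot_iff.1 h.cm a ha c hc

theorem Tri.conj (h : Tri A D C) (g : G) : Tri (rc A g) (rc D g) (rc C g) :=
  ⟨r1_rc h.r1 g, r1_rc h.r2 g, fun e => h.ne (rc_inj.1 e), rc_comm h.cm g⟩

theorem Tri.inter (h : Tri A D C) (h1 : E ∈ unipotentSubgroups A D) (h2 : E ∈ unipotentSubgroups C D) : E = D := by
  by_contra hne
  have e1 := (r1_of_mem_unip h.r1 h1 (r1_right_mem_unip h.r1) hne).2.2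
  have e2 := (r1_of_mem_unip h.r2 h2 (r1_right_mem_unip h.r2) hne).2.2
  have : C ∈ unipotentSubgroups A D := by rw [← e1, e2]; exact left_mem_unip _ _
  exact r1_commutator_ne_bot (r1_of_mem_unip h.r1 (left_mem_unip _ _) this h.ne).1 h.cm

theorem Tri.uniq (h : Tri A D C) {d d' : G} (hd : d ∈ D) (hd' : d' ∈ D) (e : ⁅rc A d, rc C d'⁆ = ⊥) : d = d' := by
  by_contra hne
  have hu : ∀ x ∈ D, rc C x ∈ unipotentSubgroups C D := fun x hx =>
    rc_mem_unip (left_mem_unip _ _) (Subgroup.mem_sup_right hx)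
  have e1 := (r1_of_mem_unip h.r2 (hu d hd) (hu d' hd') fun e => hne (r1_rc_inj (r1_symm h.r2) hd hd' e)).2.1
  have := r1_rc h.r1 d
  rw [rc_of_mem hd] at this
  refine r1_commutator_ne_bot this (commutator_eq_bot_iff.2 fun a ha x hx => ?_)
  refine commute_sup (A := rc C d) (B := rc C d') (commutator_eq_bot_iff.1 (rc_comm h.cm d) a ha)
    (commutator_eq_bot_iff.1 e a ha) x (e1 ▸ Subgroup.mem_sup_right hx)

theorem Tri.perp (h : Tri A D C) {a c d : G} (ha : Ptn A D a d) (hc : Ptn C D c d) :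
    ⁅rc D a, rc D c⁆ = ⊥ ∧ rc D a ≠ rc D c := by
  rw [← ha.e, ← hc.e]; exact ⟨rc_comm h.cm d, fun e => h.ne (rc_inj.1 e)⟩

theorem Tri.perp' (h : Tri A D C) {a c d : G} (ha : Ptn A D a d) (hc : Ptn C D c d) :
    ⁅rc D (a * c⁻¹), D⁆ = ⊥ ∧ rc D (a * c⁻¹) ≠ D := by
  obtain ⟨e1, e2⟩ := h.perp ha hc
  have := rc_comm e1 c⁻¹
  rw [rc_rc, rc_rc, mul_inv_cancel, rc_one] at this
  exact ⟨this, fun e => e2 (by rw [← rc_rc, rc_eq_iff, inv_inv] at e; exact e)⟩

theorem Tri.key (h : Tri A D C) {a c d : G} (ha : Ptn A D a d) (hc : Ptn C D c d) :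
    rc A (d * ((a * c⁻¹)⁻¹ * d⁻¹ * (a * c⁻¹))) = C := by
  rw [← rc_rc, ha.e, rc_rc, show a * ((a * c⁻¹)⁻¹ * d⁻¹ * (a * c⁻¹)) = (a * c) * (a⁻¹ * d⁻¹ * (a * c⁻¹)) by group,
    h.comm ha.ha hc.ha, show c * a * (a⁻¹ * d⁻¹ * (a * c⁻¹)) = c * (d⁻¹ * (a * c⁻¹)) by group, ← rc_rc, ← hc.e,
    rc_rc, mul_inv_cancel_left, ← rc_rc, rc_of_comm (fun x hx => h.comm ha.ha hx), rc_of_mem (C.inv_mem hc.ha)]

theorem Tri.ptn_inv (h : Tri A D C) {a d : G} (ha : Ptn A D a d) : Ptn A D a⁻¹ d⁻¹ := by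
  obtain ⟨c, hc⟩ := r1_exists_ptn (r1_symm h.r2) ha.hb ha.b1
  have hc := hc.symm
  have k := h.key ha hc
  have e := commutator_eq_bot_iff.1 (h.perp' ha hc).1 ((a * c⁻¹)⁻¹ * d⁻¹ * (a * c⁻¹))
    (mem_rc.2 (by simpa [mul_assoc] using ha.hb)) d ha.hb
  rw [← e, show (a * c⁻¹)⁻¹ * d⁻¹ * (a * c⁻¹) * d = c * (a⁻¹ * (d⁻¹ * a * (d⁻¹ * c)⁻¹)) by group, ← rc_rc,
    rc_of_comm (fun x hx => (h.comm hx hc.ha).symm), rc_mul_left (A.inv_mem ha.ha), ← rc_rc, rc_eq_iff,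
    inv_inv] at k
  have := h.inter (rc_mem_unip (left_mem_unip A D) (Subgroup.mul_mem _ (Subgroup.mem_sup_right (D.inv_mem ha.hb))
    (Subgroup.mem_sup_left ha.ha))) (k ▸ rc_mem_unip (left_mem_unip C D) (Subgroup.mul_mem _
      (Subgroup.mem_sup_right (D.inv_mem ha.hb)) (Subgroup.mem_sup_left hc.ha)))
  rw [← rc_rc, rc_eq_iff] at this
  exact ⟨A.inv_mem ha.ha, inv_ne_one.2 ha.a1, D.inv_mem ha.hb, inv_ne_one.2 ha.b1, this⟩

/-- a rank one pair in a triangle is special -/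
theorem Tri.special (h : Tri A D C) : IsSpecialRankOnePair A D := special_of_ptn_inv h.r1 fun _ _ => h.ptn_inv

/-- if `m` centralizes `D` and `A^m ⊥ A` then `D^{[a, m]} ⊥ D`. -/
theorem tri_transfer {m : G} (h : Tri A D (rc A m)) (hm : ∀ d ∈ D, m * d = d * m) {a : G} (ha : a ∈ A)
    (a1 : a ≠ 1) : ⁅rc D (a * (m⁻¹ * a * m)⁻¹), D⁆ = ⊥ ∧ rc D (a * (m⁻¹ * a * m)⁻¹) ≠ D := by
  obtain ⟨d, hd⟩ := r1_exists_ptn h.r1 ha a1
  have := hd.conj m
  rw [rc_of_comm hm, mul_assoc m⁻¹ d, ← hm d hd.hb, inv_mul_cancel_left] at this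
  exact h.perp' hd this

/-- an element of order greater than three is a product of elements of commuting conjugates -/
theorem Tri.cubic (h : Tri A D C) (cA : ∀ x ∈ A, ∀ y ∈ A, x * y = y * x) (cD : ∀ x ∈ D, ∀ y ∈ D, x * y = y * x)
    {a : G} (ha : a ∈ A) (a1 : a ≠ 1) (a2 : a ^ 2 ≠ 1) (a3 : a ^ 3 ≠ 1) {K : Subgroup G}
    (hK : ∀ g : G, rc A g ≠ A → ⁅rc A g, A⁆ = ⊥ → rc A g ≤ K) : a ∈ K := by
  obtain ⟨d, hd⟩ := r1_exists_ptn h.r1 ha a1
  obtain ⟨c, hc⟩ := r1_exists_ptn (r1_symm h.r2) hd.hb hd.b1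
  have hc := hc.symm
  have k := h.key hd hc
  obtain ⟨p1, p2⟩ := h.perp' hd hc
  set t := a * c⁻¹ with ht
  have tA : ∀ x ∈ A, t * x = x * t := fun x hx => by
    rw [ht, mul_assoc, ← h.comm hx (C.inv_mem hc.ha), ← mul_assoc, cA a ha x hx, mul_assoc]
  have cdt : ∀ x ∈ D, ∀ y ∈ D, Commute (t⁻¹ * x * t) y := fun x hx y hy =>
    commutator_eq_bot_iff.1 p1 _ (mem_rc.2 (by simpa [mul_assoc] using hx)) y hy
  set m := d * (t⁻¹ * d⁻¹ * t) with hm
  have mD : ∀ x ∈ D, m * x = x * m := fun x hx =>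
    (Commute.mul_left (cD d hd.hb x hx) (cdt _ (D.inv_mem hd.hb) x hx)).eq
  have hcm : c = m⁻¹ * a * m := by
    have := hd.conj m
    rw [k, rc_of_comm mD, mul_assoc m⁻¹ d, ← mD d hd.hb, inv_mul_cancel_left] at this
    exact Ptn.uniq h.r2 hc this
  have h' : Tri D A (rc D t) := ⟨r1_symm h.r1, by simpa [rc_of_comm tA] using r1_rc (r1_symm h.r1) t, p2.symm,
    by rw [Subgroup.commutator_comm, p1]⟩
  have hs : IsSpecialRankOnePair D A := special_symm h.special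
  have hpow : ∀ k : ℕ, a ^ k ≠ 1 → (m ^ k)⁻¹ * a * m ^ k ∈ K := by
    intro k hk
    have e : m ^ k = d ^ k * (t⁻¹ * d ^ k * t)⁻¹ := by
      rw [hm, (cdt _ (D.inv_mem hd.hb) d hd.hb).symm.mul_pow]
      congr 1
      rw [show t⁻¹ * d⁻¹ * t = t⁻¹ * d⁻¹ * t⁻¹⁻¹ by group, conj_pow]; group
    obtain ⟨q1, q2⟩ := tri_transfer h' tA (D.pow_mem hd.hb k) (fun e => hk (spc_pow_eq_one hs hd.symm e))
    rw [← e] at q1 q2
    exact hK _ q2 q1 (mem_rc.2 (by simpa [mul_assoc] using ha))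
  have q := (tri_transfer (m := m) (k ▸ h) mD (A.pow_mem ha 2) a2).1
  have t2 : a ^ 2 * (m⁻¹ * a ^ 2 * m)⁻¹ = t * t := by
    rw [show m⁻¹ * a ^ 2 * m = (m⁻¹ * a * m) * (m⁻¹ * a * m) by rw [sq]; group, ← hcm, ht,
      show a * c⁻¹ * (a * c⁻¹) = a * (c⁻¹ * a) * c⁻¹ by group, ← h.comm ha (C.inv_mem hc.ha), sq]; group
  rw [t2] at q
  have c1 : Commute (t⁻¹ * d⁻¹ * t) (t * d * t⁻¹) := by
    have := commutator_eq_bot_iff.1 q ((t * t)⁻¹ * d⁻¹ * (t * t)) (mem_rc.2 (by simpa [mul_assoc] using hd.hb)) d hd.hb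
    have e := congrArg (fun z => t * z * t⁻¹) this
    simpa [Commute, SemiconjBy, mul_assoc] using e
  have c2 : Commute m (t * m * t⁻¹) := by
    have e : t * m * t⁻¹ = (t * d * t⁻¹) * d⁻¹ := by rw [hm]; group
    rw [e]
    refine Commute.mul_right ?_ (mD _ (D.inv_mem hd.hb))
    refine Commute.mul_left ?_ c1
    have := cdt d hd.hb d hd.hb
    have e := congrArg (fun z => t * z * t⁻¹) this
    simpa [Commute, SemiconjBy, mul_assoc] using e
  have k1 := hpow 1 (by simpa using a1)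
  have k2 := hpow 2 a2
  have k3 := hpow 3 a3
  have et : t = a * (m⁻¹ * a * m)⁻¹ := by rw [← hcm]
  have u1 : m⁻¹ * t * m ∈ K := by
    have := K.mul_mem k1 (K.inv_mem k2)
    convert this using 1
    rw [et]; simp only [pow_succ, pow_zero, one_mul, mul_inv_rev, inv_inv, mul_assoc, mul_inv_cancel_left]
  have u2 : (m ^ 2)⁻¹ * t * m ^ 2 ∈ K := by
    have := K.mul_mem k2 (K.inv_mem k3)
    convert this using 1
    rw [et]; simp only [pow_succ]; group
  have u : t ∈ K := by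
    have := K.mul_mem (K.mul_mem u1 (K.inv_mem u2)) u1
    convert this using 1
    have e := c2.eq
    generalize m = m at e ⊢
    generalize t = t at e ⊢
    calc t = m⁻¹ * (t * m * t⁻¹)⁻¹ * (t * m * t⁻¹ * m) * t := by group
      _ = m⁻¹ * (t * m * t⁻¹)⁻¹ * (m * (t * m * t⁻¹)) * t := by rw [e]
      _ = _ := by simp only [pow_succ, pow_zero, one_mul, mul_inv_rev, inv_inv, mul_assoc, mul_inv_cancel_left,
        inv_mul_cancel, mul_one]
  have := K.mul_mem u k1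
  rw [et] at this
  simpa [mul_assoc] using this

section Deg
variable {S : Set (Subgroup G)}

theorem deg_pair (hS : IsRootSubgroupSet S) (hd : IsDegenerateRootSet S) (hA : A ∈ S) (hB : B ∈ S) :
    ⁅A, B⁆ = ⊥ ∨ IsRankOnePair A B :=
  (hS.pair A hA B hB).imp id fun h => h.resolve_right (hd A hA B hB)

theorem rc_mem (hS : IsRootSubgroupSet S) (hA : A ∈ S) (g : G) : rc A g ∈ S := hS.conj_mem A hA _

/-- two commuting members have a common rank one partner -/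
theorem deg_exists_tri (hS : IsRootSubgroupSet S) (hc : IsConjClassOfSubgroups S) (hd : IsDegenerateRootSet S)
    (hA : A ∈ S) (hC : C ∈ S) (hne : A ≠ C) (hAC : ⁅A, C⁆ = ⊥) : ∃ D ∈ S, Tri A D C := by
  by_contra hn
  push Not at hn
  set H := A ⊔ ⨆ E ∈ rankOnePartners S A, E with hH
  have hHC : H ≤ Subgroup.centralizer (C : Set G) := by
    refine sup_le (Subgroup.commutator_eq_bot_iff_le_centralizer.1 hAC) (iSup₂_le fun E hE => ?_)
    rcases deg_pair hS hd hE.1 hC with h | h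
    · exact Subgroup.commutator_eq_bot_iff_le_centralizer.1 h
    · exact absurd ⟨hE.2, r1_symm h, hne, hAC⟩ (hn E hE.1)
  have hAH : ∀ g : G, conjBy H g ≤ H := by
    refine iSup_induction_of_top hS.generates (by rw [conjBy_one]) fun E hE e he g ih => ?_
    rw [← conjBy_conjBy]
    refine (conjBy_mono ih e).trans ?_
    rcases deg_pair hS hd hA hE with h | h
    · have eA : conjBy A e = A := by
        simpa [rc] using rc_of_comm (A := A) (g := e⁻¹) fun a ha =>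
          (commutator_eq_bot_iff.1 h a ha _ (E.inv_mem he)).symm
      rw [hH, conjBy_sup, eA]
      refine sup_le le_sup_left (le_sup_of_le_right ?_)
      rw [conjBy, Subgroup.map_iSup]
      refine iSup_le fun F => ?_
      rw [Subgroup.map_iSup]
      refine iSup_le fun hF => le_biSup_self ⟨hS.conj_mem F hF.1 e, ?_⟩
      have := r1_conj hF.2 e
      rwa [eA] at this
    · exact conjBy_le_of_le le_rfl (Subgroup.mem_sup_right (le_biSup_self (S := rankOnePartners S A) ⟨hE, h⟩ he))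
  obtain ⟨D, hD, hCD⟩ := deg_not_isolated hS hc hd hA hC hne C hC
  obtain ⟨g, rfl⟩ := hc.2 A hA D hD
  exact r1_commutator_ne_bot (r1_symm hCD) (Subgroup.commutator_eq_bot_iff_le_centralizer.2
    ((conjBy_mono le_sup_left g).trans ((hAH g).trans hHC)))

/-- different commuting members -/
def Prp (P Q : Subgroup G) : Prop := P ≠ Q ∧ ⁅P, Q⁆ = ⊥

/-- same perp -/
def Eqv (S : Set (Subgroup G)) (P Q : Subgroup G) : Prop := ∀ E ∈ S, Prp E P ↔ Prp E Q

theorem Prp.symm {P Q : Subgroup G} (h : Prp P Q) : Prp Q P := ⟨h.1.symm, by rw [Subgroup.commutator_comm, h.2]⟩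

theorem prp_rc {P Q : Subgroup G} (g : G) : Prp (rc P g) (rc Q g) ↔ Prp P Q := by
  unfold Prp
  rw [← rc_commutator, Ne, rc_inj, rc, conjBy_eq_bot_iff]

theorem Eqv.rc (hS : IsRootSubgroupSet S) {P Q : Subgroup G} (h : Eqv S P Q) (g : G) : Eqv S (rc P g) (rc Q g) := by
  intro E hE
  have : E = H70.rc (H70.rc E g⁻¹) g := by rw [rc_rc, inv_mul_cancel, rc_one]
  rw [this, prp_rc, prp_rc]
  exact h _ (rc_mem hS hE _)

theorem Eqv.symm {P Q : Subgroup G} (h : Eqv S P Q) : Eqv S Q P := fun E hE => (h E hE).symm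

theorem Eqv.trans {P Q R : Subgroup G} (h : Eqv S P Q) (h' : Eqv S Q R) : Eqv S P R :=
  fun E hE => (h E hE).trans (h' E hE)

theorem Eqv.refl (P : Subgroup G) : Eqv S P P := fun _ _ => Iff.rfl

theorem eqv_tri (hS : IsRootSubgroupSet S) (hd : IsDegenerateRootSet S) (hB : B ∈ S) (hC : C ∈ S)
    (hD : D ∈ S) (e : Eqv S A B) (h : Tri A D C) : Tri B D C := by
  have p := (e C hC).1 ⟨h.ne.symm, h.symm.cm⟩
  refine ⟨(deg_pair hS hd hB hD).resolve_left fun h' => ?_, h.r2, p.1.symm, p.symm.2⟩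
  have : D ≠ B := by rintro rfl; exact r1_commutator_ne_bot h.r2 p.2
  exact r1_commutator_ne_bot h.r1 ((e D hD).2 (Prp.symm ⟨this.symm, h'⟩)).symm.2

theorem eqv_of_perp (hS : IsRootSubgroupSet S) (e : Eqv S A B) (h : Tri A D C) (h' : Tri B D C) {a b c : G}
    (ha : a ∈ A) (a1 : a ≠ 1) (hb : b ∈ B) (b1 : b ≠ 1) (hc : c ∈ C) (c1 : c ≠ 1)
    (e1 : ⁅rc D a, rc D c⁆ = ⊥) (e2 : ⁅rc D b, rc D c⁆ = ⊥) : Eqv S (rc D a) (rc D b) := by
  obtain ⟨d1, h1⟩ := r1_exists_ptn h.r1 ha a1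
  obtain ⟨d2, h2⟩ := r1_exists_ptn h'.r1 hb b1
  obtain ⟨d3, h3⟩ := r1_exists_ptn h.r2 hc c1
  rw [← h1.e, ← h3.e] at e1
  rw [← h2.e, ← h3.e] at e2
  rw [← h1.e, ← h2.e, h.uniq h1.hb h3.hb e1, h'.uniq h2.hb h3.hb e2]
  exact e.rc hS _

/-- if `A` and `B` have the same non-empty perp then `A ∩ ⟨A, B⟩' = 1`. -/
theorem eqv_inf_commutator (hS : IsRootSubgroupSet S) (hd : IsDegenerateRootSet S) (hA : A ∈ S) (hB : B ∈ S)
    (hC : C ∈ S) (hD : D ∈ S) (e : Eqv S A B) (h : Tri A D C) {x : G} (hx : x ∈ A) (hx' : x ∈ ⁅A ⊔ B, A ⊔ B⁆) :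
    x = 1 := by
  have h' := eqv_tri hS hd hB hC hD e h
  have cA : ∀ x ∈ A, ∀ y ∈ A, x * y = y * x := fun _ ha _ hb => rs_comm hS hA ha hb
  have cB : ∀ x ∈ B, ∀ y ∈ B, x * y = y * x := fun _ ha _ hb => rs_comm hS hB ha hb
  let K : Subgroup G :=
    { carrier := {y | ∀ a ∈ A, Eqv S (rc D (a * y)) (rc D a)}
      one_mem' := fun a _ => by rw [mul_one]; exact Eqv.refl _
      mul_mem' := fun {y z} hy hz a ha => by
        have := (hy a ha).rc hS z
        rw [rc_rc, rc_rc, mul_assoc] at this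
        exact this.trans (hz a ha)
      inv_mem' := fun {y} hy a ha => by
        have := (hy a ha).rc hS y⁻¹
        rw [rc_rc, rc_rc, mul_inv_cancel_right] at this
        exact this.symm }
  have hn : A ≤ Subgroup.normalizer (K : Set G) := by
    have : ∀ a ∈ A, ∀ y ∈ K, a * y * a⁻¹ ∈ K := fun a ha y hy a' ha' => by
      have := (hy _ (A.mul_mem ha' ha)).rc hS a⁻¹
      rwa [rc_rc, rc_rc, mul_inv_cancel_right, show a' * a * y * a⁻¹ = a' * (a * y * a⁻¹) by group] at this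
    intro a ha
    exact Subgroup.mem_normalizer_iff.2 fun y => ⟨this a ha y, fun hy => by
      simpa [mul_assoc] using this _ (A.inv_mem ha) _ hy⟩
  have hB' : B ≤ A ⊔ K := by
    intro b hb
    by_cases b1 : b = 1
    · rw [b1]; exact Subgroup.one_mem _
    obtain ⟨d, hd1⟩ := r1_exists_ptn h'.r1 hb b1
    obtain ⟨a, hd2⟩ := r1_exists_ptn (r1_symm h.r1) hd1.hb hd1.b1
    obtain ⟨c, hd3⟩ := r1_exists_ptn (r1_symm h.r2) hd1.hb hd1.b1
    have hd2 := hd2.symm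
    have hd3 := hd3.symm
    have key : ∀ a' ∈ A, Eqv S (rc D (a' * a)) (rc D (a' * b)) := by
      intro a' ha'
      have t1 : Tri A (rc D a') C := by
        have := h.conj a'
        rwa [rc_of_mem ha', rc_of_comm (fun y hy => h.comm ha' hy)] at this
      obtain ⟨b', hb', e'⟩ : ∃ b' ∈ B, Eqv S (rc D a') (rc D b') := by
        by_cases a1 : a' = 1
        · exact ⟨1, B.one_mem, a1 ▸ Eqv.refl _⟩
        obtain ⟨d', h1⟩ := r1_exists_ptn h.r1 ha' a1
        obtain ⟨b', h2⟩ := r1_exists_ptn (r1_symm h'.r1) h1.hb h1.b1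
        exact ⟨b', h2.hb, by rw [← h1.e, h2.e]; exact e.rc hS _⟩
      rw [← rc_rc, ← rc_rc]
      refine eqv_of_perp hS e t1 (eqv_tri hS hd hB hC (rc_mem hS hD _) e t1) hd2.ha hd2.a1 hb b1 hd3.ha hd3.a1
        ?_ ?_
      · have := rc_comm (h.perp hd2 hd3).1 a'
        rwa [rc_rc, rc_rc, cA _ hd2.ha _ ha', ← h.comm ha' hd3.ha, ← rc_rc, ← rc_rc] at this
      · have p : Prp (rc D b) (rc D c) := (h'.perp hd1 hd3).symm
        rw [← prp_rc b', rc_rc, rc_rc, cB _ hb _ hb', ← h'.comm hb' hd3.ha, ← rc_rc, ← rc_rc] at p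
        have p2 := ((e'.rc hS c) _ (rc_mem hS (rc_mem hS hD _) _)).2 p
        exact (((e'.rc hS b) _ (rc_mem hS (rc_mem hS hD _) _)).2 p2.symm).symm.2
    have : a⁻¹ * b ∈ K := fun a' ha' => by
      have := key _ (A.mul_mem ha' (A.inv_mem hd2.ha))
      rw [inv_mul_cancel_right, mul_assoc] at this
      exact this.symm
    simpa using Subgroup.mul_mem _ (Subgroup.mem_sup_left hd2.ha) (Subgroup.mem_sup_right this)
  have hxK : x ∈ K := commutator_sup_le_of_abelian cA hn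
    (Subgroup.commutator_mono (sup_le le_sup_left hB') (sup_le le_sup_left hB') hx')
  by_contra x1
  obtain ⟨d, h1⟩ := r1_exists_ptn h.r1 hx x1
  obtain ⟨c, h2⟩ := r1_exists_ptn (r1_symm h.r2) h1.hb h1.b1
  have h2 := h2.symm
  have p : Prp (rc D x) (rc D c) := (h.perp h1 h2).symm
  have q := hxK 1 A.one_mem
  rw [one_mul, rc_one] at q
  have p2 := (q _ (rc_mem hS hD c)).1 p.symm
  rw [← h2.e] at p2
  have := r1_rc h.r2 d
  rw [rc_of_mem h2.hb] at this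
  exact r1_commutator_ne_bot this p2.2

theorem eqv_of_no_tri (hS : IsRootSubgroupSet S) (hd : IsDegenerateRootSet S) (hB : B ∈ S)
    (hAB : IsRankOnePair A B) (hn : ∀ C ∈ S, ¬ Tri A B C) : Eqv S A B := by
  have h1 : ∀ E ∈ S, Prp E A → Prp E B := fun E hE p =>
    ⟨by rintro rfl; exact r1_commutator_ne_bot hAB p.symm.2,
      (deg_pair hS hd hE hB).resolve_right fun h => hn E hE ⟨hAB, h, p.1.symm, p.symm.2⟩⟩
  refine fun E hE => ⟨h1 E hE, fun p => ?_⟩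
  obtain ⟨x, hx, e⟩ := r1_exists_conj hAB
  have p' : Prp (rc E x) A := by
    rw [← prp_rc x⁻¹, rc_rc, mul_inv_cancel, rc_one, rc, inv_inv, ← e]; exact p
  have q := h1 _ (rc_mem hS hE x) p'
  have : rc (rc E x) x⁻¹ = rc E x := rc_of_comm fun y hy => (commute_sup (commutator_eq_bot_iff.1 p'.2 y hy)
    (commutator_eq_bot_iff.1 q.2 y hy) _ (Subgroup.inv_mem _ hx)).symm
  rw [rc_rc, mul_inv_cancel, rc_one] at this
  rwa [this]

end Deg

theorem psl2Pair_le_commutator {k : Type*} [Field k] (hk : 3 < ENat.card k) (h : IsPSL2PairOver k A B) :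
    A ≤ ⁅A ⊔ B, A ⊔ B⁆ := by
  obtain ⟨φ, -, -, rfl, rfl⟩ := h
  rw [← Subgroup.map_sup, ← Subgroup.map_commutator]
  refine Subgroup.map_mono (SP.le_commutator_sup (sp_of sl2_special ⟨upper_comm, lower_comm⟩) (hk.trans_le ?_))
  exact ENat.card_le_card_of_injective (f := fun r : k => (⟨xu r, xu_mem_upper r⟩ : upperUnipotentSL2 k))
    fun r s e => xu_inj (congrArg Subtype.val e)

end H70
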